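import Mathlib
import Cfsg.Prelude.Def_GeometricClasses
import Cfsg.Prelude.Def_Classical
import Cfsg.Agent.Helper58.TSDefs
import Cfsg.Agent.Helper45.OTBAD2A
import Cfsg.Agent.Helper31.OTNF
import Cfsg.Agent.Helper98.OPar
import Cfsg.Agent.Helper43.Spinor

set_option autoImplicit false
set_option linter.unusedSectionVars false
set_option linter.unusedVariables false

/-!
# Sub-CALL TSR2 (helper90), piece BADAEX: when `-1` is a nonsquare, some involution of `Ω` has an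
anisotropic plane as its `(-1)`-eigenspace (abstract nondegenerate `Q` in dimension `≥ 3`).
Route: normal-form basis (helper31's `ot_nf`), then helper45's `bad2a_abs` for the form `2 • Q`.
-/

namespace Cfsg.Agent.Helper52.TSR2

open Module Cfsg Cfsg.Geo Cfsg.Agent.Helper58.TS
open scoped MatrixGroups

theorem mem_commutator_transport {G : Type*} [Group G] {H₁ H₂ : Subgroup G} (h : H₁ = H₂)
    (g : ↥H₁) (hg : g ∈ commutator ↥H₁) : (⟨g.1, h ▸ g.2⟩ : ↥H₂) ∈ commutator ↥H₂ := by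
  subst h
  exact hg

variable {ι : Type} [Fintype ι] [DecidableEq ι] {F : Type*} [Field F] [Fintype F]

theorem r2_bad_a_ex (Q : (ι → F) → F) (hQ : IsNondegenerateQuadraticForm Q) (h2 : (2 : F) ≠ 0)
    (hm1 : ¬ IsSquare (-1 : F)) (hcard : 3 ≤ Fintype.card ι) :
    ∃ g : ↥(Cfsg.isometryGroup F Q), g ∈ Cfsg.Omega F Q ∧
      ((g : GL ι F) : Matrix ι ι F) * ((g : GL ι F) : Matrix ι ι F) = 1 ∧
      finrank F (LinearMap.ker (Matrix.toLin' ((g : GL ι F) : Matrix ι ι F) + 1)) = 2 ∧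
      ∀ w ∈ LinearMap.ker (Matrix.toLin' ((g : GL ι F) : Matrix ι ι F) + 1), Q w = 0 → w = 0 := by
  classical
  have hD : Cfsg.Agent.Helper90.HT.HNondegOn
      (Cfsg.Agent.Helper43.OT.ph (Cfsg.Agent.Helper98.op_qf Q hQ)) ⊤ := by
    intro v _ hv
    by_contra hv0
    obtain ⟨-, x, hx⟩ := hQ.nondegenerate v hv0
    exact hx (hv x Submodule.mem_top)
  obtain ⟨s, hs⟩ : ∃ s, Fintype.card ι = s + 1 := ⟨Fintype.card ι - 1, by omega⟩
  have hfr : finrank F (⊤ : Submodule F (ι → F)) = s + 1 := by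
    rw [finrank_top, Module.finrank_fintype_fun_eq_card, hs]
  obtain ⟨b, δ, -, -, -, hbo, hb1, -⟩ :=
    Cfsg.Agent.Helper31.OT5972.ot_nf (Cfsg.Agent.Helper98.op_qf Q hQ) h2 ⊤ hD s hfr
  have hs2 : 2 ≤ s := by omega
  have h01 : (⟨0, by omega⟩ : Fin (s + 1)) ≠ ⟨1, by omega⟩ := by
    intro h
    have := congrArg Fin.val h
    simp at this
  have hl0 : (⟨0, by omega⟩ : Fin (s + 1)) ≠ Fin.last s := by
    intro h
    have := congrArg Fin.val h
    simp at this
    omega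
  have hl1 : (⟨1, by omega⟩ : Fin (s + 1)) ≠ Fin.last s := by
    intro h
    have := congrArg Fin.val h
    simp at this
    omega
  have hq1 : 2 * Q (b ⟨0, by omega⟩) = 1 := by
    have h := hb1 _ hl0
    rw [Cfsg.Agent.Helper43.OT.ph_self] at h
    exact h
  have hq2 : 2 * Q (b ⟨1, by omega⟩) = 1 := by
    have h := hb1 _ hl1
    rw [Cfsg.Agent.Helper43.OT.ph_self] at h
    exact h
  have hpol : QuadraticMap.polar Q (b ⟨0, by omega⟩) (b ⟨1, by omega⟩) = 0 := hbo _ _ h01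
  have hQ₁c : ∀ v, ((2 : F) • Cfsg.Agent.Helper98.op_qf Q hQ) v = 2 * Q v := fun v => by
    show (2 : F) • Q v = 2 * Q v
    rw [smul_eq_mul]
  have hpol₁ : ∀ x y, QuadraticMap.polar ⇑((2 : F) • Cfsg.Agent.Helper98.op_qf Q hQ) x y =
      2 * QuadraticMap.polar Q x y := by
    intro x y
    unfold QuadraticMap.polar
    rw [hQ₁c, hQ₁c, hQ₁c]
    ring
  have hQ₁nd : (QuadraticMap.polarBilin
      ((2 : F) • Cfsg.Agent.Helper98.op_qf Q hQ)).Nondegenerate := by
    constructor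
    · intro z hz
      by_contra h0
      obtain ⟨-, x, hx⟩ := hQ.nondegenerate z h0
      have h3 : QuadraticMap.polar ⇑((2 : F) • Cfsg.Agent.Helper98.op_qf Q hQ) z x = 0 := hz x
      rw [hpol₁] at h3
      exact hx ((mul_eq_zero.1 h3).resolve_left h2)
    · intro z hz
      by_contra h0
      obtain ⟨⟨x, hx⟩, -⟩ := hQ.nondegenerate z h0
      have h3 : QuadraticMap.polar ⇑((2 : F) • Cfsg.Agent.Helper98.op_qf Q hQ) x z = 0 := hz x
      rw [hpol₁] at h3
      exact hx ((mul_eq_zero.1 h3).resolve_left h2)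
  obtain ⟨g₁, hΩ, hg2, hfr2, han⟩ := Cfsg.Agent.Helper45.OT5972.bad2a_abs
    ((2 : F) • Cfsg.Agent.Helper98.op_qf Q hQ) h2 hQ₁nd (by omega) hm1
    (b ⟨0, by omega⟩) (b ⟨1, by omega⟩)
    (by rw [hQ₁c]; exact hq1) (by rw [hQ₁c]; exact hq2) (by rw [hpol₁, hpol, mul_zero])
  have hiso : Cfsg.isometryGroup F ⇑((2 : F) • Cfsg.Agent.Helper98.op_qf Q hQ) =
      Cfsg.isometryGroup F Q := by
    ext g
    rw [Cfsg.Agent.Helper43.mem_iso_iff, Cfsg.Agent.Helper43.mem_iso_iff]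
    constructor
    · intro h u
      have h3 := h u
      rw [hQ₁c, hQ₁c] at h3
      exact mul_left_cancel₀ h2 h3
    · intro h u
      rw [hQ₁c, hQ₁c, h u]
  refine ⟨⟨g₁.1, hiso ▸ g₁.2⟩, mem_commutator_transport hiso g₁ hΩ, hg2, hfr2, ?_⟩
  intro w hw hQw
  exact han w hw (by rw [hQ₁c, hQw, mul_zero])

end Cfsg.Agent.Helper52.TSR2
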