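import Mathlib
import Cfsg.Agent.Helper3.SU2Defs

set_option autoImplicit false

namespace Cfsg.Agent.Helper52

open Cfsg.Agent.Helper3.SU2 Cfsg.Agent.Helper13

variable {F : Type*} [Field F] [Fintype F] {n : ℕ}

theorem su2c_normcard (hF : Fintype.card F = 2 ^ 2) (v : Fin n → F) :
    Cfsg.hermForm n F 2 v v = ((supp v).card : F) := by
  classical
  rw [herm2_apply]
  have h1 : ∀ i, v i * v i ^ 2 = if i ∈ supp v then (1 : F) else 0 := by
    intro i
    by_cases h : v i = 0
    · rw [if_neg (by rw [mem_supp]; simpa using h), h]; simp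
    · rw [if_pos ((mem_supp v i).2 h)]
      have := ufld2_norm hF (v i) h
      rwa [Cfsg.Agent.Helper5.frobQ_apply] at this
  rw [Finset.sum_congr rfl (fun i _ => h1 i), Finset.sum_ite_mem, Finset.univ_inter,
    Finset.sum_const, nsmul_eq_mul, mul_one]

end Cfsg.Agent.Helper52
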