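import Mathlib
import Cfsg.Agent.Helper3.SU2Defs

set_option autoImplicit false

namespace Cfsg.Agent.Helper52

open Cfsg.Agent.Helper3.SU2 Cfsg.Agent.Helper13

variable {F : Type*} [Field F] [Fintype F] {n : ℕ}

theorem su2c_small (hF : Fintype.card F = 2 ^ 2) {Φ : Set (Fin n → F)} (hΦ : PhiCl Φ)
    (hE : ∀ i j : Fin n, Edge Φ i j)
    (hnc : ∀ v : Fin n → F, Cfsg.hermForm n F 2 v v = ((supp v).card : F))
    (v : Fin n → F) (hv : (supp v).card ≤ 3) : v ∈ Φ := by
  classical
  have h2F := ufld2_two hF
  have hcases : (supp v).card = 0 ∨ (supp v).card = 1 ∨ (supp v).card = 2 ∨ (supp v).card = 3 := by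
    omega
  rcases hcases with h0 | h1 | h2 | h3
  · have hv0 : v = 0 := by
      funext i
      by_contra h
      have hi := (mem_supp v i).2 h
      rw [Finset.card_eq_zero.1 h0] at hi
      simp at hi
    rw [hv0]
    exact hΦ.zero
  · apply hΦ.noniso
    rw [hnc, h1]
    simp
  · obtain ⟨i, j, hij, hs⟩ := Finset.card_eq_two.1 h2
    have hi : v i ≠ 0 := (mem_supp v i).1 (by rw [hs]; simp)
    have hj : v j ≠ 0 := (mem_supp v j).1 (by rw [hs]; simp)
    have hk : ∀ k, k ≠ i → k ≠ j → v k = 0 := by
      intro k hki hkj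
      by_contra h
      have := (mem_supp v k).2 h
      rw [hs] at this
      simp at this
      tauto
    have hv' : v = v i • (Pi.single i (1 : F) + (v j / v i) • Pi.single j (1 : F)) := by
      funext k
      by_cases hki : k = i
      · subst hki
        simp [Pi.single_apply, hij]
      · by_cases hkj : k = j
        · subst hkj
          simp [Pi.single_apply, hki]
          field_simp
        · simp [Pi.single_apply, hki, hkj, hk k hki hkj]
    rw [hv']
    exact hΦ.smul _ _ hi (hE i j _ (div_ne_zero hj hi))
  · apply hΦ.noniso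
    rw [hnc, h3]
    have : ((3 : ℕ) : F) = 1 := by
      push_cast
      linear_combination h2F
    rw [this]
    exact one_ne_zero

end Cfsg.Agent.Helper52
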