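import Mathlib
import Cfsg.Prelude.Def_GeometricClasses
import Cfsg.Agent.Helper96.SpTQ

/-!
# PIECE T4 of CALL S5874: a tensor decomposition with a Lagrangian factor gives plus type
-/

set_option autoImplicit false
open Cfsg Cfsg.Geo Matrix
open scoped Kronecker

namespace Cfsg.Agent.Helper52

variable {ι : Type} [Fintype ι] [DecidableEq ι] {F : Type*} [Field F]

/-- The coordinate arrays all of whose rows lie in `U₂`. -/
def o12RowSub {n₁ n₂ : ℕ} (U₂ : Submodule F (Fin n₂ → F)) :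
    Submodule F (Fin n₁ × Fin n₂ → F) where
  carrier := {z | ∀ a, (fun b => z (a, b)) ∈ U₂}
  add_mem' := by
    intro z z' hz hz' a
    have h := U₂.add_mem (hz a) (hz' a)
    exact h
  zero_mem' := by
    intro a
    exact U₂.zero_mem
  smul_mem' := by
    intro c z hz a
    have h := U₂.smul_mem c (hz a)
    exact h

theorem o12_mem_rowSub {n₁ n₂ : ℕ} (U₂ : Submodule F (Fin n₂ → F))
    (z : Fin n₁ × Fin n₂ → F) :
    z ∈ (o12RowSub U₂ : Submodule F (Fin n₁ × Fin n₂ → F)) ↔ ∀ a, (fun b => z (a, b)) ∈ U₂ :=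
  Iff.rfl

/-- The row submodule is a power of `U₂`. -/
noncomputable def o12RowEquiv {n₁ n₂ : ℕ} (U₂ : Submodule F (Fin n₂ → F)) :
    (o12RowSub U₂ : Submodule F (Fin n₁ × Fin n₂ → F)) ≃ₗ[F] (Fin n₁ → U₂) where
  toFun z := fun a => ⟨fun b => z.1 (a, b), z.2 a⟩
  invFun w := ⟨fun p => (w p.1).1 p.2, fun a => (w a).2⟩
  map_add' := by
    intro z z'
    rfl
  map_smul' := by
    intro c z
    rfl
  left_inv := by
    intro z
    rfl
  right_inv := by
    intro w
    rfl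

theorem o12_finrank_rowSub {n₁ n₂ : ℕ} (U₂ : Submodule F (Fin n₂ → F)) :
    Module.finrank F (o12RowSub U₂ : Submodule F (Fin n₁ × Fin n₂ → F))
      = n₁ * Module.finrank F U₂ := by
  rw [LinearEquiv.finrank_eq (o12RowEquiv U₂), Module.finrank_pi_fintype]
  simp

/-- PIECE T4 of CALL S5874. -/
theorem o12_tensor_plus (Q : (ι → F) → F) (hQ : IsNondegenerateQuadraticForm Q)
    {n₁ n₂ : ℕ} (e : ι ≃ Fin n₁ × Fin n₂) (P : GL ι F)
    (f₁ : (Fin n₁ → F) → (Fin n₁ → F) → F) (f₂ : (Fin n₂ → F) → (Fin n₂ → F) → F)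
    (hf₁ : IsBilinearForm f₁) (hf₂ : IsBilinearForm f₂)
    (hT : IsTensorFormStructure id (QuadraticMap.polar Q) f₁ f₂ e P)
    (U₂ : Submodule F (Fin n₂ → F)) (hU₂ : ∀ u ∈ U₂, ∀ v ∈ U₂, f₂ u v = 0)
    (hdim : 2 * Module.finrank F U₂ = n₂)
    (hpure : ∀ (s : Fin n₁ → F), ∀ y ∈ U₂,
      Q ((P : Matrix ι ι F) *ᵥ ((fun p : Fin n₁ × Fin n₂ => s p.1 * y p.2) ∘ e)) = 0) :
    IsPlusTypeOn Q ⊤ := by
  classical
  obtain ⟨c, -, hform⟩ := hT
  -- the linear map `z ↦ P (z ∘ e)`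
  obtain ⟨L, hL⟩ : ∃ L : (Fin n₁ × Fin n₂ → F) →ₗ[F] (ι → F),
      ∀ z, L z = (P : Matrix ι ι F) *ᵥ (z ∘ e) :=
    ⟨(Matrix.toLin' (P : Matrix ι ι F)).comp (LinearMap.funLeft F F e), fun z => by
      rw [LinearMap.comp_apply, Matrix.toLin'_apply]; rfl⟩
  have hLinj : Function.Injective L := by
    intro z z' hzz
    rw [hL, hL] at hzz
    have h1 : ((P⁻¹ : GL ι F) : Matrix ι ι F) *ᵥ ((P : Matrix ι ι F) *ᵥ (z ∘ e))
        = ((P⁻¹ : GL ι F) : Matrix ι ι F) *ᵥ ((P : Matrix ι ι F) *ᵥ (z' ∘ e)) := by rw [hzz]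
    rw [Matrix.mulVec_mulVec, Matrix.mulVec_mulVec, ← Units.val_mul, inv_mul_cancel,
      Units.val_one, Matrix.one_mulVec, Matrix.one_mulVec] at h1
    funext p
    have h2 := congrFun h1 (e.symm p)
    simpa using h2
  -- the polar form vanishes on the image of the row submodule
  have hpolar : ∀ z ∈ (o12RowSub U₂ : Submodule F (Fin n₁ × Fin n₂ → F)),
      ∀ z' ∈ (o12RowSub U₂ : Submodule F (Fin n₁ × Fin n₂ → F)),
      QuadraticMap.polar Q (L z) (L z') = 0 := by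
    intro z hz z' hz'
    rw [hL, hL, hform, Cfsg.Agent.Helper96.Sy.formOfGram_rows f₁ hf₂]
    have h0 : ∀ a a', gramMatrix f₁ a a' * f₂ (Cfsg.Agent.Helper96.Sy.rowOf a z)
        (Cfsg.Agent.Helper96.Sy.rowOf a' z') = 0 := by
      intro a a'
      have h := hU₂ (Cfsg.Agent.Helper96.Sy.rowOf a z) (hz a)
        (Cfsg.Agent.Helper96.Sy.rowOf a' z') (hz' a')
      rw [h, mul_zero]
    simp only [h0, Finset.sum_const_zero, mul_zero]
  have hQ0 : Q 0 = 0 := by
    have h := hQ.smul 0 0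
    rw [zero_smul] at h
    rw [h]; ring
  -- `Q` vanishes on the image of the row submodule
  have hQZ : ∀ z ∈ (o12RowSub U₂ : Submodule F (Fin n₁ × Fin n₂ → F)), Q (L z) = 0 := by
    intro z hz
    have hdecomp : z = ∑ a : Fin n₁,
        (fun p : Fin n₁ × Fin n₂ => (Pi.single a (1 : F) : Fin n₁ → F) p.1 * z (a, p.2)) := by
      funext p
      obtain ⟨a₀, b⟩ := p
      rw [Finset.sum_apply]
      simp [Pi.single_apply]
    have key : (∑ a : Fin n₁,
        (fun p : Fin n₁ × Fin n₂ => (Pi.single a (1 : F) : Fin n₁ → F) p.1 * z (a, p.2)))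
          ∈ (o12RowSub U₂ : Submodule F (Fin n₁ × Fin n₂ → F)) ∧
        Q (L (∑ a : Fin n₁,
          (fun p : Fin n₁ × Fin n₂ => (Pi.single a (1 : F) : Fin n₁ → F) p.1 * z (a, p.2))))
          = 0 := by
      refine Finset.sum_induction _
        (fun w => w ∈ (o12RowSub U₂ : Submodule F (Fin n₁ × Fin n₂ → F)) ∧ Q (L w) = 0)
        ?_ ?_ ?_
      · rintro w w' ⟨hw, hwQ⟩ ⟨hw', hwQ'⟩
        refine ⟨Submodule.add_mem _ hw hw', ?_⟩
        have hp := hpolar w hw w' hw'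
        rw [QuadraticMap.polar, hwQ, hwQ', sub_zero, sub_zero, ← map_add] at hp
        exact hp
      · exact ⟨Submodule.zero_mem _, by rw [map_zero]; exact hQ0⟩
      · intro a _
        refine ⟨?_, ?_⟩
        · intro a'
          have h := U₂.smul_mem ((Pi.single a (1 : F) : Fin n₁ → F) a') (hz a)
          exact h
        · rw [hL]
          exact hpure (Pi.single a (1 : F)) (fun b => z (a, b)) (hz a)
    rw [← hdecomp] at key
    exact key.2
  refine ⟨(o12RowSub U₂ : Submodule F (Fin n₁ × Fin n₂ → F)).map L, le_top, ?_, ?_⟩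
  · intro w hw
    obtain ⟨z, hz, rfl⟩ := Submodule.mem_map.mp hw
    exact hQZ z hz
  · have h1 : Module.finrank F ((o12RowSub U₂ : Submodule F (Fin n₁ × Fin n₂ → F)).map L)
        = n₁ * Module.finrank F U₂ := by
      rw [← o12_finrank_rowSub (n₁ := n₁) U₂]
      exact (LinearEquiv.finrank_eq (Submodule.equivMapOfInjective L hLinj _)).symm
    have h2 : Module.finrank F (⊤ : Submodule F (ι → F)) = n₁ * n₂ := by
      rw [finrank_top, Module.finrank_fintype_fun_eq_card, Fintype.card_congr e,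
        Fintype.card_prod, Fintype.card_fin, Fintype.card_fin]
    rw [h1, h2]
    calc 2 * (n₁ * Module.finrank F U₂) = n₁ * (2 * Module.finrank F U₂) := by ring
      _ = n₁ * n₂ := by rw [hdim]

end Cfsg.Agent.Helper52
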