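import Mathlib
import Cfsg.Agent.Helper96.OHDefs
import Cfsg.Agent.Helper36.AltEven

set_option autoImplicit false
set_option linter.unusedSectionVars false
set_option linter.unusedVariables false

/-!
# CALL OD (helper69), piece DSKEVEN: a skew isometry (`M * M = -1`) has no invariant nondegenerate
subspace of odd dimension.  The form `(u, v) ↦ polar Q (M u) v` on `W` is alternating and
nondegenerate.
-/

namespace Cfsg.Agent.Helper52.OD59

open Module Polynomial Cfsg Cfsg.Geo
open Cfsg.Agent.Helper13.TIu Cfsg.Agent.Helper96.OH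
open scoped MatrixGroups

variable {ι : Type} [Fintype ι] [DecidableEq ι] {F : Type*} [Field F] (Q : (ι → F) → F)

theorem od_skew_even (hQ : IsNondegenerateQuadraticForm Q) (h2 : (2 : F) ≠ 0)
    (M : Matrix ι ι F) (hM : ∀ v, Q (M.mulVec v) = Q v) (hM2 : M * M = -1)
    (W : Submodule F (ι → F)) (hW : W.map (Matrix.toLin' M) ≤ W) (hnd : ONd Q W) :
    Even (finrank F W) := by
  have hMM : ∀ x, M.mulVec (M.mulVec x) = -x := by
    intro x
    rw [Matrix.mulVec_mulVec, hM2, Matrix.neg_mulVec, Matrix.one_mulVec]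
  have hiso : ∀ x y, pB Q hQ (M.mulVec x) (M.mulVec y) = pB Q hQ x y := by
    intro x y
    rw [pB_apply, pB_apply]
    unfold QuadraticMap.polar
    rw [← Matrix.mulVec_add, hM, hM, hM]
  have hvMv : ∀ x, pB Q hQ (M.mulVec x) x = 0 := by
    intro x
    have h1 : pB Q hQ (M.mulVec x) x = - pB Q hQ (M.mulVec x) x := by
      calc pB Q hQ (M.mulVec x) x = pB Q hQ (M.mulVec (M.mulVec x)) (M.mulVec x) :=
            (hiso _ _).symm
        _ = pB Q hQ (-x) (M.mulVec x) := by rw [hMM]
        _ = - pB Q hQ x (M.mulVec x) := by rw [map_neg, LinearMap.neg_apply]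
        _ = - pB Q hQ (M.mulVec x) x := by rw [pB_comm Q hQ x]
    have h3 : (2 : F) * pB Q hQ (M.mulVec x) x = 0 := by linear_combination h1
    exact (mul_eq_zero.1 h3).resolve_left h2
  refine Cfsg.Agent.Helper36.even_finrank_of_alt (F := F) (finrank F W) ↥W
    ((pB Q hQ).compl₁₂ ((Matrix.toLin' M).comp W.subtype) W.subtype) ?_ ?_ rfl
  · intro v
    rw [LinearMap.compl₁₂_apply]
    show pB Q hQ (Matrix.toLin' M (v : ι → F)) (v : ι → F) = 0
    rw [Matrix.toLin'_apply]
    exact hvMv _
  · intro v hv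
    by_contra hv0
    have hv0' : (v : ι → F) ≠ 0 := fun h => hv0 (Subtype.ext h)
    have hMv0 : M.mulVec (v : ι → F) ≠ 0 := by
      intro h
      have h1 := hMM (v : ι → F)
      rw [h, Matrix.mulVec_zero] at h1
      exact hv0' (neg_eq_zero.1 h1.symm)
    have hMvW : M.mulVec (v : ι → F) ∈ W := by
      apply hW
      refine ⟨(v : ι → F), v.2, ?_⟩
      rw [Matrix.toLin'_apply]
    obtain ⟨-, x, hx, hne⟩ := hnd _ hMvW hMv0
    apply hne
    have h1 := hv ⟨x, hx⟩
    rw [LinearMap.compl₁₂_apply] at h1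
    have h3 : pB Q hQ (Matrix.toLin' M (v : ι → F)) x = 0 := h1
    rw [Matrix.toLin'_apply, pB_apply] at h3
    exact h3

end Cfsg.Agent.Helper52.OD59
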