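import Mathlib
import Cfsg.Prelude.Def_OddOrderLocal
import Cfsg.Agent.Helper71.Fitting

/-!
# CALL S1357 (helper2), piece FN: basic facts on `F(M)`.
-/

set_option autoImplicit false

namespace Cfsg.Agent.Helper52

open Cfsg Subgroup

universe u

variable {G : Type u} [Group G] [Finite G]

theorem bg15c_fit_normal (M : Subgroup G) :
    fittingOf M ≤ M ∧ M ≤ normalizer (fittingOf M : Set G) ∧
      Group.IsNilpotent ↥(fittingOf M) ∧ fittingHallOf M ≤ fittingOf M := by
  have hn : (fittingSubgroup ↥M).Normal := Subgroup.sSup_normal _ (fun _ h => h.1)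
  unfold fittingOf fittingHallOf
  refine ⟨Subgroup.map_subtype_le _, ?_, ?_, ?_⟩
  · rw [le_normalizer_iff]
    rintro m hm _ ⟨f, hf, rfl⟩
    exact ⟨⟨m, hm⟩ * f * ⟨m, hm⟩⁻¹, hn.conj_mem f hf ⟨m, hm⟩, rfl⟩
  · have := Cfsg.Agent.Helper71.fittingSubgroup_isNilpotent ↥M
    exact Group.nilpotent_of_mulEquiv
      ((fittingSubgroup ↥M).equivMapOfInjective M.subtype M.subtype_injective)
  · apply Subgroup.map_mono
    apply sSup_le_sSup
    rintro K ⟨hKn, hKnil, -⟩
    exact ⟨hKn, hKnil⟩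

end Cfsg.Agent.Helper52
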