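import Mathlib
import Cfsg.Prelude.Def_OddOrderLocal
import Cfsg.Agent.Helper22.NormalElemAb
import Cfsg.Agent.Helper10.Thompson

/-!
# CALL S1357 (helper2), piece ID: for an ideal prime `q`, a non-central element of order `q` of a
Sylow `q`-subgroup lies in an elementary abelian subgroup of order `> q²` of it.
-/

set_option autoImplicit false
set_option linter.unusedSectionVars false

namespace Cfsg.Agent.Helper52

open Cfsg Subgroup

universe u

variable {G : Type u} [Group G] [Finite G]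

theorem bg15c_ideal {Q : Subgroup G} {q : ℕ} (hid : IsIdealPrime q G) (hQq : IsPGroup q Q)
    (hQidx : ¬ q ∣ Q.index) {x : G} (hxQ : x ∈ Q) (hxo : orderOf x = q)
    (hnc : ¬ Q ≤ centralizer ({x} : Set G)) :
    ∃ B : Subgroup G, B ≤ Q ∧ IsMulCommutative B ∧ (∀ b ∈ B, b ^ q = 1) ∧
      q ^ 2 < Nat.card B ∧ x ∈ B := by
  obtain ⟨hq, -, hideal⟩ := hid
  have hqF : Fact q.Prime := ⟨hq⟩
  have hx1 : x ≠ 1 := by
    rintro rfl
    rw [orderOf_one] at hxo
    exact hq.one_lt.ne hxo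
  have hQnt : Nontrivial ↥Q := ⟨⟨⟨x, hxQ⟩, 1, fun h => hx1 (congrArg Subtype.val h)⟩⟩
  have hZnt : Nontrivial ↥(center ↥Q) := hQq.center_nontrivial
  have hZp : IsPGroup q ↥(center ↥Q) := hQq.to_subgroup _
  have hdvd : q ∣ Nat.card ↥(center ↥Q) := by
    rcases hZp.card_eq_or_dvd with h1 | h1
    · exact absurd h1 (ne_of_gt Finite.one_lt_card)
    · exact h1
  obtain ⟨zc, hzc⟩ := exists_prime_orderOf_dvd_card' q hdvd
  have hzQ : ((zc : ↥Q) : G) ∈ Q := (zc : ↥Q).2
  have hzo : orderOf ((zc : ↥Q) : G) = q := by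
    rw [Subgroup.orderOf_coe, Subgroup.orderOf_coe, hzc]
  have hzcomm : ∀ y ∈ Q, ((zc : ↥Q) : G) * y = y * ((zc : ↥Q) : G) := by
    intro y hy
    have h1 := Subgroup.mem_center_iff.1 zc.2 ⟨y, hy⟩
    exact (congrArg Subtype.val h1).symm
  generalize ((zc : ↥Q) : G) = z at hzQ hzo hzcomm
  have hzx : z ∉ zpowers x := by
    intro hzx
    have hle : zpowers z ≤ zpowers x := zpowers_le.2 hzx
    have hcard : Nat.card (zpowers x) ≤ Nat.card (zpowers z) := by
      rw [Nat.card_zpowers, Nat.card_zpowers, hxo, hzo]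
    have heq : zpowers z = zpowers x := Subgroup.eq_of_le_of_card_ge hle hcard
    have hxz : x ∈ zpowers z := by
      rw [heq]
      exact mem_zpowers x
    obtain ⟨k, hk⟩ := mem_zpowers_iff.1 hxz
    apply hnc
    intro u hu
    rw [mem_centralizer_iff]
    intro y hy
    rw [Set.mem_singleton_iff] at hy
    rw [hy, ← hk]
    exact ((show Commute z u from hzcomm u hu).zpow_left k).eq
  have hxq : x ^ q = 1 := by
    rw [← hxo]
    exact pow_orderOf_eq_one x
  have hzq : z ^ q = 1 := by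
    rw [← hzo]
    exact pow_orderOf_eq_one z
  obtain ⟨hAe, hAc⟩ := Cfsg.Agent.Helper22.elemAb_sup_zpowers' (p := q) (zpowers x)
    (Cfsg.Agent.Helper10.elemAb_zpowers hxq) z hzx hzq
    (fun v hv => hzcomm v (zpowers_le.2 hxQ hv))
  have hAQ : zpowers x ⊔ zpowers z ≤ Q := sup_le (zpowers_le.2 hxQ) (zpowers_le.2 hzQ)
  have hAcard : Nat.card ↥(zpowers x ⊔ zpowers z) = q ^ 2 := by
    rw [hAc, Nat.card_zpowers, hxo, pow_two]
  obtain ⟨B, hBQ, hBe, hAB⟩ := hideal (hQq.toSylow hQidx) (zpowers x ⊔ zpowers z) hAQ hAe hAcard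
  refine ⟨B, hBQ, hBe.1, hBe.2, ?_, hAB.le (mem_sup_left (mem_zpowers x))⟩
  rw [← hAcard]
  exact lt_of_le_of_ne (Subgroup.card_le_of_le hAB.le)
    (fun h => hAB.ne (Subgroup.eq_of_le_of_card_ge hAB.le h.ge))

end Cfsg.Agent.Helper52
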