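import Mathlib
import Cfsg.Prelude.Def_OddOrderLocal
import Cfsg.Agent.Helper47.BG157CC

/-!
# CALL S1357 (helper2), piece QC: an element of prime order `≠ q` of a nilpotent normal subgroup
commutes with a normal `q`-subgroup.
-/

set_option autoImplicit false
set_option linter.unusedSectionVars false

namespace Cfsg.Agent.Helper52

open Cfsg Subgroup

universe u

variable {G : Type u} [Group G] [Finite G]

theorem bg15c_Q_cent {M Q F : Subgroup G} {q : ℕ} (hq : q.Prime) (hQM : Q ≤ M)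
    (hQn : M ≤ normalizer (Q : Set G)) (hQq : IsPGroup q Q) (hFM : F ≤ M)
    (hFn : M ≤ normalizer (F : Set G)) (hFnil : Group.IsNilpotent ↥F) {x : G} (hx : x ∈ F)
    (hxo : (orderOf x).Prime) (hxq : orderOf x ≠ q) : Q ≤ centralizer ({x} : Set G) := by
  have hcop : (Nat.card ↥(Subgroup.closure {f : G | f ∈ F ∧ (orderOf f).Coprime q})).Coprime q :=
    Cfsg.Agent.Helper47.bg157_coprime_closure hFnil q hq.pos
  have hxT : x ∈ Subgroup.closure {f : G | f ∈ F ∧ (orderOf f).Coprime q} :=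
    Subgroup.subset_closure ⟨hx, (Nat.coprime_primes hxo hq).2 hxq⟩
  have hTn : M ≤ normalizer
      ((Subgroup.closure {f : G | f ∈ F ∧ (orderOf f).Coprime q} : Subgroup G) : Set G) := by
    rw [le_normalizer_closure_iff]
    rintro m hm f ⟨hfF, hfc⟩
    apply Subgroup.subset_closure
    refine ⟨le_normalizer_iff.1 hFn m hm f hfF, ?_⟩
    have e : orderOf (m * f * m⁻¹) = orderOf f := by
      rw [← MulAut.conj_apply]
      exact MulEquiv.orderOf_eq _ _
    rw [e]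
    exact hfc
  intro u hu
  rw [mem_centralizer_iff]
  intro y hy
  rw [Set.mem_singleton_iff] at hy
  rw [hy]
  have hc1 : u * x * u⁻¹ * x⁻¹ ∈ Subgroup.closure {f : G | f ∈ F ∧ (orderOf f).Coprime q} :=
    mul_mem (le_normalizer_iff.1 hTn u (hQM hu) x hxT) (inv_mem hxT)
  have hc2 : u * x * u⁻¹ * x⁻¹ ∈ Q := by
    have h1 : x * u⁻¹ * x⁻¹ ∈ Q := le_normalizer_iff.1 hQn x (hFM hx) u⁻¹ (inv_mem hu)
    have e : u * x * u⁻¹ * x⁻¹ = u * (x * u⁻¹ * x⁻¹) := by group
    rw [e]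
    exact mul_mem hu h1
  have hone : u * x * u⁻¹ * x⁻¹ = 1 := by
    obtain ⟨k, hk⟩ := hQq ⟨_, hc2⟩
    have hk' : (u * x * u⁻¹ * x⁻¹) ^ q ^ k = 1 := by
      have h3 := congrArg Subtype.val hk
      simpa using h3
    have hd1 : orderOf (u * x * u⁻¹ * x⁻¹) ∣ q ^ k := orderOf_dvd_of_pow_eq_one hk'
    have hd2 : orderOf (u * x * u⁻¹ * x⁻¹) ∣
        Nat.card ↥(Subgroup.closure {f : G | f ∈ F ∧ (orderOf f).Coprime q}) :=
      Subgroup.orderOf_dvd_natCard _ hc1
    have h4 : orderOf (u * x * u⁻¹ * x⁻¹) = 1 :=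
      Nat.Coprime.eq_one_of_dvd (Nat.Coprime.coprime_dvd_left hd2 (hcop.pow_right k)) hd1
    exact orderOf_eq_one_iff.1 h4
  have h5 : u * x * u⁻¹ = x := mul_inv_eq_one.1 hone
  exact (mul_inv_eq_iff_eq_mul.1 h5).symm

end Cfsg.Agent.Helper52
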