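import Mathlib
import Cfsg.Prelude.Def_OddOrderLocal

/-!
# CALL S1435 (helper23), piece FIN2: a cyclic subgroup `K ≤ E` centralizing the abelian group
`[E, E]` lies in `F(E)`.
-/

set_option autoImplicit false
set_option linter.unusedSectionVars false

namespace Cfsg.Agent.Helper52

open Cfsg Subgroup

open scoped commutatorElement

universe u

variable {G : Type u} [Group G] [Finite G] {M K U Mstar H : Subgroup G}

theorem bg65_le_fitting {E K : Subgroup G} (hKE : K ≤ E) (hKc : IsCyclic K)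
    (hE' : ∀ a ∈ ⁅E, E⁆, ∀ b ∈ ⁅E, E⁆, a * b = b * a)
    (hcent : ∀ k ∈ K, ∀ a ∈ ⁅E, E⁆, k * a = a * k) : K ≤ fittingOf E := by
  have hEE : ⁅E, E⁆ ≤ E := by
    rw [Subgroup.commutator_le]
    intro a ha b hb
    exact mul_mem (mul_mem (mul_mem ha hb) (inv_mem ha)) (inv_mem hb)
  have hNE : K ⊔ ⁅E, E⁆ ≤ E := sup_le hKE hEE
  have hKcomm : ∀ a ∈ K, ∀ b ∈ K, a * b = b * a := by
    intro a ha b hb
    obtain ⟨g, hg⟩ := hKc.exists_generator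
    obtain ⟨i, hi⟩ := Subgroup.mem_zpowers_iff.1 (hg ⟨a, ha⟩)
    obtain ⟨j, hj⟩ := Subgroup.mem_zpowers_iff.1 (hg ⟨b, hb⟩)
    have h1 : (⟨a, ha⟩ : K) * ⟨b, hb⟩ = ⟨b, hb⟩ * ⟨a, ha⟩ := by
      rw [← hi, ← hj, ← zpow_add, ← zpow_add, add_comm]
    exact congrArg Subtype.val h1
  have hcl : K ⊔ ⁅E, E⁆ = Subgroup.closure ((K : Set G) ∪ ((⁅E, E⁆ : Subgroup G) : Set G)) := by
    rw [Subgroup.closure_union, Subgroup.closure_eq, Subgroup.closure_eq]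
  have hgen : ∀ x ∈ ((K : Set G) ∪ ((⁅E, E⁆ : Subgroup G) : Set G)),
      ∀ y ∈ ((K : Set G) ∪ ((⁅E, E⁆ : Subgroup G) : Set G)), x * y = y * x := by
    rintro x (hx | hx) y (hy | hy)
    · exact hKcomm x hx y hy
    · exact hcent x hx y hy
    · exact (hcent y hy x hx).symm
    · exact hE' x hx y hy
  have hNc : IsMulCommutative ↥(K ⊔ ⁅E, E⁆) := by
    rw [hcl]
    exact Subgroup.isMulCommutative_closure hgen
  have hNcomm : ∀ a ∈ K ⊔ ⁅E, E⁆, ∀ b ∈ K ⊔ ⁅E, E⁆, a * b = b * a := by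
    intro a ha b hb
    exact congrArg Subtype.val (hNc.is_comm.comm ⟨a, ha⟩ ⟨b, hb⟩)
  have hnorm : ((K ⊔ ⁅E, E⁆).subgroupOf E).Normal := by
    constructor
    intro n hn e
    rw [mem_subgroupOf] at hn ⊢
    have h1 : ⁅(e : G), (n : G)⁆ ∈ K ⊔ ⁅E, E⁆ :=
      (le_sup_right : ⁅E, E⁆ ≤ K ⊔ ⁅E, E⁆) (commutator_mem_commutator e.2 n.2)
    have e1 : ((e * n * e⁻¹ : ↥E) : G) = ⁅(e : G), (n : G)⁆ * (n : G) := by
      rw [commutatorElement_def]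
      simp
    rw [e1]
    exact mul_mem h1 hn
  have hnil : Group.IsNilpotent ↥((K ⊔ ⁅E, E⁆).subgroupOf E) := by
    have hc : ∀ a b : ↥((K ⊔ ⁅E, E⁆).subgroupOf E), a * b = b * a := by
      intro a b
      apply Subtype.ext
      apply Subtype.ext
      exact hNcomm _ (mem_subgroupOf.1 a.2) _ (mem_subgroupOf.1 b.2)
    exact @CommGroup.isNilpotent _
      { ((K ⊔ ⁅E, E⁆).subgroupOf E).toGroup with mul_comm := hc }
  intro k hk
  refine ⟨⟨k, hKE hk⟩, ?_, rfl⟩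
  have h2 : (⟨k, hKE hk⟩ : ↥E) ∈ (K ⊔ ⁅E, E⁆).subgroupOf E := by
    rw [mem_subgroupOf]
    exact (le_sup_left : K ≤ K ⊔ ⁅E, E⁆) hk
  exact (le_sSup (show (K ⊔ ⁅E, E⁆).subgroupOf E ∈
    {N : Subgroup ↥E | N.Normal ∧ Group.IsNilpotent N} from ⟨hnorm, hnil⟩)) h2

end Cfsg.Agent.Helper52
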