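import Mathlib
import Cfsg.Prelude.Def_OddOrderLocal

/-!
# CALL S1435 (helper23), piece FIN3: `H ∩ M* = E` for a complement `E ≤ M*` of `S` in `H` with
`M* ∩ S = 1`.
-/

set_option autoImplicit false
set_option linter.unusedSectionVars false

namespace Cfsg.Agent.Helper52

open Cfsg Subgroup

open scoped commutatorElement

universe u

variable {G : Type u} [Group G] [Finite G] {M K U Mstar H : Subgroup G}

theorem bg65_inter_eq {H Mstar E S : Subgroup G} (hE : IsComplIn E S H) (hEM : E ≤ Mstar)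
    (hint : Mstar ⊓ S = ⊥) : H ⊓ Mstar = E := by
  obtain ⟨hEH, hSH, -, hdec⟩ := hE
  apply le_antisymm
  · rintro x ⟨hxH, hxM⟩
    obtain ⟨a, ha, b, hb, rfl⟩ := hdec x hxH
    have hbM : b ∈ Mstar := by
      have h1 : a⁻¹ * (a * b) ∈ Mstar := mul_mem (inv_mem (hEM ha)) hxM
      rwa [inv_mul_cancel_left] at h1
    have hb1 : b ∈ Mstar ⊓ S := ⟨hbM, hb⟩
    rw [hint, mem_bot] at hb1
    rw [hb1, mul_one]
    exact ha
  · exact le_inf hEH hEM

end Cfsg.Agent.Helper52
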