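import Cfsg.Agent.Helper40.DZDefs
import Cfsg.Agent.Helper40.SteinbergPSL

set_option autoImplicit false

/-!
CALL S4538, piece A3b: the permutation character of `GL_n` on `GL_n / P` restricted to `SL_n` is
the permutation character of `SL_n` on `SL_n / (P ∩ SL_n)`, for `P` containing the upper triangular
group.
-/

namespace Cfsg.Agent.Helper52.DZ

open Cfsg.Agent.Helper40.DZ Cfsg.Agent.Helper44.PSLn Matrix

universe u

variable {n : ℕ} {F : Type u} [Field F]

local notation "SLn" => Matrix.SpecialLinearGroup (Fin n) F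

variable [Fintype F]

/-- A3b: the permutation character of `GL_n` on `GL_n / P` restricted to `SL_n` is the
permutation character of `SL_n` on `SL_n / (P ∩ SL_n)`. -/
theorem fpc_SL (hn : 0 < n) (P : Subgroup (GL (Fin n) F)) (hP : Cfsg.upperTriangularGL n F ≤ P)
    (s : SLn) :
    Cfsg.fixedPointCharacter P (Matrix.SpecialLinearGroup.toGL s) =
      Cfsg.fixedPointCharacter (P.comap Matrix.SpecialLinearGroup.toGL) s := by
  classical
  unfold Cfsg.fixedPointCharacter
  congr 1
  symm
  let T : Subgroup SLn := P.comap Matrix.SpecialLinearGroup.toGL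
  let φ : SLn ⧸ T → GL (Fin n) F ⧸ P :=
    Quotient.lift (fun x : SLn => ((Matrix.SpecialLinearGroup.toGL x : GL (Fin n) F) :
      GL (Fin n) F ⧸ P)) (by
        intro x y hxy
        have h1 : x⁻¹ * y ∈ T := QuotientGroup.leftRel_apply.mp hxy
        show ((Matrix.SpecialLinearGroup.toGL x : GL (Fin n) F) : GL (Fin n) F ⧸ P) =
          ((Matrix.SpecialLinearGroup.toGL y : GL (Fin n) F) : GL (Fin n) F ⧸ P)
        rw [QuotientGroup.eq, ← map_inv, ← map_mul]
        exact h1)
  have hφ : ∀ x : SLn, φ (x : SLn ⧸ T) =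
      ((Matrix.SpecialLinearGroup.toGL x : GL (Fin n) F) : GL (Fin n) F ⧸ P) := fun x => rfl
  have hinj : Function.Injective φ := by
    intro a b hab
    induction a using QuotientGroup.induction_on with | _ x => ?_
    induction b using QuotientGroup.induction_on with | _ y => ?_
    rw [hφ, hφ, QuotientGroup.eq, ← map_inv, ← map_mul] at hab
    rw [QuotientGroup.eq]
    exact hab
  have hsurj : Function.Surjective φ := by
    intro b
    induction b using QuotientGroup.induction_on with | _ g => ?_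
    have hd : ((g * (Cfsg.Agent.Helper40.SteinbergPSL.dg hn
        (Matrix.GeneralLinearGroup.det g))⁻¹ : GL (Fin n) F) :
        Matrix (Fin n) (Fin n) F).det = 1 := by
      rw [← Matrix.GeneralLinearGroup.val_det_apply, map_mul, map_inv,
        Cfsg.Agent.Helper40.SteinbergPSL.dg_det, mul_inv_cancel]
      rfl
    obtain ⟨x, h1⟩ : ∃ x : SLn, (Matrix.SpecialLinearGroup.toGL x : GL (Fin n) F) =
        g * (Cfsg.Agent.Helper40.SteinbergPSL.dg hn (Matrix.GeneralLinearGroup.det g))⁻¹ :=
      ⟨⟨_, hd⟩, Units.ext rfl⟩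
    refine ⟨(x : SLn ⧸ T), ?_⟩
    rw [hφ, QuotientGroup.eq, h1]
    have h2 : (g * (Cfsg.Agent.Helper40.SteinbergPSL.dg hn
        (Matrix.GeneralLinearGroup.det g))⁻¹)⁻¹ * g =
        Cfsg.Agent.Helper40.SteinbergPSL.dg hn (Matrix.GeneralLinearGroup.det g) := by group
    rw [h2]
    exact hP (Cfsg.Agent.Helper40.SteinbergPSL.dg_mem hn _)
  have hequi : ∀ q : SLn ⧸ T, φ (s • q) = Matrix.SpecialLinearGroup.toGL s • φ q := by
    intro q
    induction q using QuotientGroup.induction_on with | _ x => ?_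
    show φ ((s * x : SLn) : SLn ⧸ T) = _
    rw [hφ, hφ, map_mul]
    rfl
  have hbij : Function.Bijective φ := ⟨hinj, hsurj⟩
  refine Nat.card_congr (Equiv.subtypeEquiv (Equiv.ofBijective φ hbij) ?_)
  intro q
  rw [MulAction.mem_fixedBy, MulAction.mem_fixedBy]
  show s • q = q ↔ Matrix.SpecialLinearGroup.toGL s • φ q = φ q
  rw [← hequi]
  exact ⟨fun h => congrArg φ h, fun h => hinj h⟩

end Cfsg.Agent.Helper52.DZ
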