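import Cfsg.Prelude.Def_SteinbergCover
import Cfsg.Agent.Helper36.StCenter

/-!
# CALL MR, piece EVP: the product `∏_i h_i(t_i)` acts on `v` by the scalar `t_{i₀}`
-/

set_option autoImplicit false

namespace Cfsg.Agent.Helper52.MREVP

open Cfsg Cfsg.Lie Cfsg.Agent.Helper36

universe u

theorem rho_hprod_aux {D : ChevalleyDatum} {K : Type*} [Field K] {V : Type*} [AddCommGroup V]
    [Module K V] (ρ : D.SteinbergCover K →* (Module.End K V)ˣ) (v : V) (i₀ : ℕ)
    (h : ∀ i < D.rank, ∀ t : K, t ≠ 0 →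
      ((ρ (hS D (D.scGen K) (D.simple i) t) : (Module.End K V)ˣ) : Module.End K V) v =
        (if i = i₀ then t else 1) • v)
    (t : ℕ → Kˣ) (L : List ℕ) (hL : ∀ i ∈ L, i < D.rank) (hnd : L.Nodup) :
    ((ρ (hProd D (D.scGen K) L t) : (Module.End K V)ˣ) : Module.End K V) v =
      (if i₀ ∈ L then ((t i₀ : Kˣ) : K) else 1) • v := by
  induction L with
  | nil =>
    rw [hProd_nil, map_one]
    simp
  | cons i L ih =>
    rw [List.nodup_cons] at hnd
    rw [hProd_cons, map_mul, Units.val_mul, Module.End.mul_apply,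
      ih (fun j hj => hL j (List.mem_cons_of_mem _ hj)) hnd.2, map_smul,
      h i (hL i List.mem_cons_self) _ (Units.ne_zero _), smul_smul]
    congr 1
    by_cases hi : i = i₀
    · subst hi
      rw [if_pos rfl, if_neg hnd.1, if_pos List.mem_cons_self, one_mul]
    · rw [if_neg hi, mul_one]
      have h1 : (i₀ ∈ i :: L) ↔ i₀ ∈ L := by
        rw [List.mem_cons]
        constructor
        · rintro (h2 | h2)
          · exact absurd h2.symm hi
          · exact h2
        · exact fun h2 => Or.inr h2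
      rw [if_congr h1 rfl rfl]

/-- PIECE EVP: the product `∏_i h_i(t_i)` acts on `v` by the scalar `t_{i₀}`. -/
theorem rho_hprod {D : ChevalleyDatum} {K : Type*} [Field K] {V : Type*} [AddCommGroup V]
    [Module K V] (ρ : D.SteinbergCover K →* (Module.End K V)ˣ) (v : V) (i₀ : ℕ)
    (hi₀ : i₀ < D.rank)
    (h : ∀ i < D.rank, ∀ t : K, t ≠ 0 →
      ((ρ (hS D (D.scGen K) (D.simple i) t) : (Module.End K V)ˣ) : Module.End K V) v =
        (if i = i₀ then t else 1) • v)
    (t : ℕ → Kˣ) :
    ((ρ (hProd D (D.scGen K) (List.range D.rank) t) : (Module.End K V)ˣ) : Module.End K V) v =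
      ((t i₀ : Kˣ) : K) • v := by
  rw [rho_hprod_aux ρ v i₀ h t (List.range D.rank) (fun j hj => List.mem_range.mp hj)
    List.nodup_range, if_pos (List.mem_range.mpr hi₀)]

end Cfsg.Agent.Helper52.MREVP
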