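import Mathlib
import Cfsg.Prelude.Def_GeometricClasses
import Cfsg.Prelude.Def_Classical
import Cfsg.Agent.Helper96.OHDefs
import Cfsg.Agent.Helper36.AltEven

set_option autoImplicit false
set_option linter.unusedSectionVars false
set_option linter.unusedVariables false

/-!
# CALL NP (helper13), piece NEGODD: an isometry with `M * M = -1` has no invariant nondegenerate
subspace of odd dimension.  The form `(u, v) ↦ polar Q (M u) v` on `W` is alternating and
nondegenerate.
-/

namespace Cfsg.Agent.Helper52.NP5989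

open Module Cfsg Cfsg.Geo Cfsg.Agent.Helper96.OH
open scoped MatrixGroups

universe u

variable {F : Type u} [Field F] [Fintype F]

theorem np_neg_odd {ι : Type} [Fintype ι] [DecidableEq ι] (Q : (ι → F) → F)
    (hQ : IsNondegenerateQuadraticForm Q) (h2 : (2 : F) ≠ 0) (M : Matrix ι ι F)
    (hM : ∀ v, Q (M.mulVec v) = Q v) (hM2 : M * M = -1) (W : Submodule F (ι → F))
    (hW : IsNondegenerateOn (QuadraticMap.polar Q) W) (hWM : W.map (Matrix.toLin' M) ≤ W) :
    Even (finrank F W) := by
  have hMM : ∀ x, M.mulVec (M.mulVec x) = -x := by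
    intro x
    rw [Matrix.mulVec_mulVec, hM2, Matrix.neg_mulVec, Matrix.one_mulVec]
  have hiso : ∀ x y, pB Q hQ (M.mulVec x) (M.mulVec y) = pB Q hQ x y := by
    intro x y
    rw [pB_apply, pB_apply]
    unfold QuadraticMap.polar
    rw [← Matrix.mulVec_add, hM, hM, hM]
  have hvMv : ∀ x, pB Q hQ (M.mulVec x) x = 0 := by
    intro x
    have h1 : pB Q hQ (M.mulVec x) x = - pB Q hQ (M.mulVec x) x := by
      calc pB Q hQ (M.mulVec x) x = pB Q hQ (M.mulVec (M.mulVec x)) (M.mulVec x) :=
            (hiso _ _).symm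
        _ = pB Q hQ (-x) (M.mulVec x) := by rw [hMM]
        _ = - pB Q hQ x (M.mulVec x) := by rw [map_neg, LinearMap.neg_apply]
        _ = - pB Q hQ (M.mulVec x) x := by rw [pB_comm Q hQ x]
    have h3 : (2 : F) * pB Q hQ (M.mulVec x) x = 0 := by linear_combination h1
    exact (mul_eq_zero.1 h3).resolve_left h2
  refine Cfsg.Agent.Helper36.even_finrank_of_alt (F := F) (finrank F W) ↥W
    ((pB Q hQ).compl₁₂ ((Matrix.toLin' M).comp W.subtype) W.subtype) ?_ ?_ rfl
  · intro v
    rw [LinearMap.compl₁₂_apply]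
    show pB Q hQ (Matrix.toLin' M (v : ι → F)) (v : ι → F) = 0
    rw [Matrix.toLin'_apply]
    exact hvMv _
  · intro v hv
    by_contra hv0
    have hv0' : (v : ι → F) ≠ 0 := fun h => hv0 (Subtype.ext h)
    have hMv0 : M.mulVec (v : ι → F) ≠ 0 := by
      intro h
      have h1 := hMM (v : ι → F)
      rw [h, Matrix.mulVec_zero] at h1
      exact hv0' (neg_eq_zero.1 h1.symm)
    have hMvW : M.mulVec (v : ι → F) ∈ W := by
      apply hWM
      refine ⟨(v : ι → F), v.2, ?_⟩
      rw [Matrix.toLin'_apply]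
    obtain ⟨-, x, hx, hne⟩ := hW _ hMvW hMv0
    apply hne
    have h1 := hv ⟨x, hx⟩
    rw [LinearMap.compl₁₂_apply] at h1
    have h3 : pB Q hQ (Matrix.toLin' M (v : ι → F)) x = 0 := h1
    rw [Matrix.toLin'_apply, pB_apply] at h3
    exact h3

end Cfsg.Agent.Helper52.NP5989
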