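import Mathlib
import Cfsg.Agent.Helper96.OHDefs
import Cfsg.Agent.Helper43.UniMain
import Cfsg.Agent.Helper43.UniMinus

set_option autoImplicit false
set_option linter.unusedSectionVars false
set_option linter.unusedVariables false

/-!
# CALL OD (helper69), piece PKEYM: the key step for `r = p`, minus form, with a general predicate
`Good` (copy of `keyodd` in the proof of `Cfsg.Agent.S5994.result`).
-/

namespace Cfsg.Agent.Helper52.OD59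

open Module Polynomial Cfsg Cfsg.Geo
open Cfsg.Agent.Helper13.TIu Cfsg.Agent.Helper96.OH
open Cfsg.Agent.Helper43 Cfsg.Agent.Helper43.UniIso Cfsg.Agent.Helper43.UniMain
  Cfsg.Agent.Helper43.OrthEven Cfsg.Agent.Helper43.UniMinus
open scoped MatrixGroups

variable {ι : Type} [Fintype ι] [DecidableEq ι] {F : Type*} [Field F] (Q : (ι → F) → F)

theorem od_p_key_minus [Fintype F] (p : ℕ) [Fact p.Prime] [CharP F p]
    (hodd : Odd (Fintype.card F)) (d m : ℕ) (hd : 1 ≤ d) (hmd : m ≤ 2 * d) (a b : F)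
    (hab : ∀ x y : F, x ^ 2 + a * x * y + b * y ^ 2 = 0 → x = 0 ∧ y = 0)
    (Good : Submodule F ((Fin (d - 1) ⊕ Fin (d - 1)) ⊕ Fin 2 → F) → Prop)
    (hG : ∀ W, Good W → finrank F W = m ∧ ONd (Cfsg.quadFormMinus (d - 1) F a b) W)
    (H : ∀ x : GL ((Fin (d - 1) ⊕ Fin (d - 1)) ⊕ Fin 2) F,
      x ∈ Cfsg.Geo.omegaGL (Cfsg.quadFormMinus (d - 1) F a b) →
      (∃ z : F, ((x ^ p : GL ((Fin (d - 1) ⊕ Fin (d - 1)) ⊕ Fin 2) F) :
        Matrix ((Fin (d - 1) ⊕ Fin (d - 1)) ⊕ Fin 2) ((Fin (d - 1) ⊕ Fin (d - 1)) ⊕ Fin 2) F) =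
        z • (1 : Matrix ((Fin (d - 1) ⊕ Fin (d - 1)) ⊕ Fin 2)
          ((Fin (d - 1) ⊕ Fin (d - 1)) ⊕ Fin 2) F)) →
      (∀ z : F, (x : Matrix ((Fin (d - 1) ⊕ Fin (d - 1)) ⊕ Fin 2)
        ((Fin (d - 1) ⊕ Fin (d - 1)) ⊕ Fin 2) F) ≠
        z • (1 : Matrix ((Fin (d - 1) ⊕ Fin (d - 1)) ⊕ Fin 2)
          ((Fin (d - 1) ⊕ Fin (d - 1)) ⊕ Fin 2) F)) →
      ∃ W, Good W ∧ W.map (Matrix.toLin' (x : Matrix ((Fin (d - 1) ⊕ Fin (d - 1)) ⊕ Fin 2)
        ((Fin (d - 1) ⊕ Fin (d - 1)) ⊕ Fin 2) F)) ≤ W)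
    (μ : Multiset ℕ) (hμ : ∀ e ∈ μ, 0 < e ∧ e ≤ p) (hpar : ∀ e : ℕ, Even e → Even (μ.count e))
    (hsum : μ.sum = 2 * d) (hoddp : ∃ e ∈ μ, Odd e) :
    ∃ ν : Multiset ℕ, ν ≤ μ ∧ ν.sum = m ∧ ∀ e : ℕ, Even e → Even (ν.count e) := by
  classical
  have hpp : p.Prime := Fact.out
  have hp2 : p ≠ 2 := by
    intro h
    obtain ⟨n, -, hn⟩ := FiniteField.card F p
    rw [h] at hn
    rw [hn] at hodd
    exact (Nat.not_even_iff_odd.mpr hodd) (Nat.even_pow.mpr ⟨even_two, n.pos.ne'⟩)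
  have h2 : (2 : F) ≠ 0 := by
    intro h
    have h' : ((2 : ℕ) : F) = 0 := by exact_mod_cast h
    have hd2 : p ∣ 2 := (CharP.cast_eq_zero_iff F p 2).mp h'
    exact hp2 ((Nat.prime_dvd_prime_iff_eq hpp Nat.prime_two).mp hd2)
  have : Nonempty ((Fin (d - 1) ⊕ Fin (d - 1)) ⊕ Fin 2) := ⟨Sum.inr 0⟩
  have hcard : Fintype.card ((Fin (d - 1) ⊕ Fin (d - 1)) ⊕ Fin 2) = 2 * d := by
    rw [Fintype.card_sum, Fintype.card_sum, Fintype.card_fin, Fintype.card_fin]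
    omega
  obtain ⟨A, hA, hAk⟩ := exists_matrix_minus h2 a b hab d μ (fun e he => (hμ e he).1) hpar hsum
    hoddp
  have key := key_general p hp2 (minusQF (d - 1) F a b) (minusQF_nondeg (d - 1) a b hab) m Good
    (fun W hW => hG W hW)
    (fun x hxΩ hxp hx1 hxs => H x hxΩ ⟨1, by rw [hxp]; simp⟩ hxs) μ hμ
    (by rw [hsum, hcard]) A hA hAk
  rcases key with hμ1 | ⟨W, ν, -, -, -, hνμ, hνs, hνp, -⟩
  · refine ⟨Multiset.replicate m 1, ?_, ?_, ?_⟩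
    · rw [hμ1, Multiset.replicate_le_replicate, hcard]
      exact hmd
    · simp
    · intro e he
      rw [Multiset.count_replicate]
      split_ifs with h1
      · exfalso
        rw [← h1] at he
        exact Nat.not_even_one he
      · exact Even.zero
  · exact ⟨ν, hνμ, hνs, hνp⟩

end Cfsg.Agent.Helper52.OD59
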