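import Mathlib
import Cfsg.Agent.Helper96.OHDefs
import Cfsg.Agent.Helper43.Spinor

set_option autoImplicit false
set_option linter.unusedSectionVars false
set_option linter.unusedVariables false

/-!
# CALL OD (helper69), piece SKEXP: if `ι₀² = -1` the plus form has a skew isometry
(`diag (ι₀, …, ι₀, -ι₀, …, -ι₀)`).
-/

namespace Cfsg.Agent.Helper52.OD59

open Module Polynomial Cfsg Cfsg.Geo
open Cfsg.Agent.Helper13.TIu Cfsg.Agent.Helper96.OH
open scoped MatrixGroups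

variable {ι : Type} [Fintype ι] [DecidableEq ι] {F : Type*} [Field F] (Q : (ι → F) → F)

theorem od_skew_ex_plus (d : ℕ) (ι₀ : F) (hι : ι₀ * ι₀ = -1) :
    ∃ g : ↥(Cfsg.isometryGroup F (Cfsg.quadFormPlus d F)),
      ((g : GL (Fin d ⊕ Fin d) F) : Matrix (Fin d ⊕ Fin d) (Fin d ⊕ Fin d) F) *
        ((g : GL (Fin d ⊕ Fin d) F) : Matrix (Fin d ⊕ Fin d) (Fin d ⊕ Fin d) F) = -1 := by
  have hDD : ∀ k : Fin d ⊕ Fin d,
      (Sum.elim (fun _ => ι₀) (fun _ => -ι₀) : Fin d ⊕ Fin d → F) k *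
        (Sum.elim (fun _ => ι₀) (fun _ => -ι₀) : Fin d ⊕ Fin d → F) k = -1 := by
    rintro (j | j)
    · exact hι
    · show -ι₀ * -ι₀ = -1
      rw [neg_mul_neg, hι]
  have hsq : Matrix.diagonal (Sum.elim (fun _ => ι₀) (fun _ => -ι₀) : Fin d ⊕ Fin d → F) *
      Matrix.diagonal (Sum.elim (fun _ => ι₀) (fun _ => -ι₀) : Fin d ⊕ Fin d → F) = -1 := by
    rw [Matrix.diagonal_mul_diagonal]
    ext a b
    by_cases hab : a = b
    · subst hab
      rw [Matrix.diagonal_apply_eq, hDD]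
      simp
    · rw [Matrix.diagonal_apply_ne _ hab]
      simp [hab]
  have h1 : Matrix.diagonal (Sum.elim (fun _ => ι₀) (fun _ => -ι₀) : Fin d ⊕ Fin d → F) *
      (-Matrix.diagonal (Sum.elim (fun _ => ι₀) (fun _ => -ι₀) : Fin d ⊕ Fin d → F)) = 1 := by
    rw [mul_neg, hsq, neg_neg]
  have h2 : (-Matrix.diagonal (Sum.elim (fun _ => ι₀) (fun _ => -ι₀) : Fin d ⊕ Fin d → F)) *
      Matrix.diagonal (Sum.elim (fun _ => ι₀) (fun _ => -ι₀) : Fin d ⊕ Fin d → F) = 1 := by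
    rw [neg_mul, hsq, neg_neg]
  have hmem : (⟨Matrix.diagonal (Sum.elim (fun _ => ι₀) (fun _ => -ι₀) : Fin d ⊕ Fin d → F),
      -Matrix.diagonal (Sum.elim (fun _ => ι₀) (fun _ => -ι₀) : Fin d ⊕ Fin d → F), h1, h2⟩ :
      GL (Fin d ⊕ Fin d) F) ∈ Cfsg.isometryGroup F (Cfsg.quadFormPlus d F) := by
    rw [Cfsg.Agent.Helper43.mem_iso_iff]
    intro u
    show Cfsg.quadFormPlus d F
      ((Matrix.diagonal (Sum.elim (fun _ => ι₀) (fun _ => -ι₀) : Fin d ⊕ Fin d → F)).mulVec u) =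
      Cfsg.quadFormPlus d F u
    unfold Cfsg.quadFormPlus
    apply Finset.sum_congr rfl
    intro j _
    rw [Matrix.mulVec_diagonal, Matrix.mulVec_diagonal]
    show ι₀ * u (Sum.inl j) * (-ι₀ * u (Sum.inr j)) = u (Sum.inl j) * u (Sum.inr j)
    linear_combination (-(u (Sum.inl j) * u (Sum.inr j))) * hι
  exact ⟨⟨_, hmem⟩, hsq⟩

end Cfsg.Agent.Helper52.OD59
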