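import Mathlib
import Cfsg.Agent.Helper43.OTDefs

set_option autoImplicit false
set_option linter.unusedSectionVars false

/-!
# CALL OT piece SPINHYP (helper52), part 1: the glue from the statements of INVB, NF, SPINSQ, HYP
(passed in as hypotheses).
-/

namespace Cfsg.Agent.Helper52.OT5972

open Module Polynomial Cfsg.Agent.Helper90.HT Cfsg.Agent.Helper43.OT
open Cfsg.Agent.Helper43.C3O (gm)

universe u

section grp3

variable {F : Type u} [Field F] [Fintype F] {ι : Type} [Fintype ι] [DecidableEq ι]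

theorem ot_spin_hyp_of
    (hINVB : ∀ (h : (ι → F) → (ι → F) → F), IsHerm (RingHom.id F) h →
      (∀ v, (∀ w, h v w = 0) → v = 0) → (2 : F) ≠ 0 → ∀ (T : Module.End F (ι → F)),
      HPres h T → T ^ 2 = 1 → HNondegOn h (LinearMap.ker (T + 1)))
    (hNF : ∀ (Q : QuadraticForm F (ι → F)), (2 : F) ≠ 0 → ∀ (D : Submodule F (ι → F)),
      HNondegOn (ph Q) D → ∀ s : ℕ, finrank F D = s + 1 →
      ∃ (b : Fin (s + 1) → (ι → F)) (δ : F), δ ≠ 0 ∧ LinearIndependent F b ∧
        Submodule.span F (Set.range b) = D ∧ (∀ j l, j ≠ l → ph Q (b j) (b l) = 0) ∧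
        (∀ j, j ≠ Fin.last s → ph Q (b j) (b j) = 1) ∧
        ph Q (b (Fin.last s)) (b (Fin.last s)) = δ)
    (hSPINSQ : ∀ (Q : QuadraticForm F (ι → F)), (2 : F) ≠ 0 →
      (QuadraticMap.polarBilin Q).Nondegenerate → 2 ≤ Fintype.card ι →
      ∀ (g : ↥(Cfsg.isometryGroup F ⇑Q)), g ∈ Cfsg.Omega F ⇑Q → gm g * gm g = 1 →
      ∀ (s : ℕ) (b : Fin s → ι → F), (∀ j, Q (b j) ≠ 0) →
      (∀ j l, j ≠ l → QuadraticMap.polar ⇑Q (b j) (b l) = 0) →
      Submodule.span F (Set.range b) = LinearMap.ker (Matrix.toLin' (gm g) + 1) →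
      Even s ∧ IsSquare (∏ j, Q (b j)))
    (hHYP : ∀ (Q : QuadraticForm F (ι → F)), (2 : F) ≠ 0 → ∀ (s : ℕ), Odd s →
      ∀ (b : Fin (s + 1) → (ι → F)), LinearIndependent F b →
      (∀ j l, j ≠ l → ph Q (b j) (b l) = 0) → (∀ j, j ≠ Fin.last s → ph Q (b j) (b j) = 1) →
      IsSquare (ph Q (b (Fin.last s)) (b (Fin.last s))) →
      ph Q (b (Fin.last s)) (b (Fin.last s)) ≠ 0 → IsSquare (-1 : F) →
      ∃ A : Submodule F (ι → F), A ≤ Submodule.span F (Set.range b) ∧ HTI (ph Q) A ∧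
        2 * finrank F A = s + 1)
    (Q : QuadraticForm F (ι → F)) (h2 : (2 : F) ≠ 0)
    (hQ : (QuadraticMap.polarBilin Q).Nondegenerate) (hcard : 2 ≤ Fintype.card ι)
    (g : ↥(Cfsg.isometryGroup F ⇑Q)) (hgΩ : g ∈ Cfsg.Omega F ⇑Q) (hg2 : gm g * gm g = 1)
    (hm1 : IsSquare (-1 : F)) :
    ∃ A : Submodule F (ι → F), A ≤ LinearMap.ker (Matrix.toLin' (gm g) + 1) ∧ HTI (ph Q) A ∧
      2 * finrank F A = finrank F (LinearMap.ker (Matrix.toLin' (gm g) + 1)) := by
  have hT : HPres (ph Q) (Matrix.toLin' (gm g)) := by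
    apply hpres_ph
    intro v
    rw [Matrix.toLin'_apply]
    exact g.2 v v
  have hT2 : (Matrix.toLin' (gm g)) ^ 2 = 1 := by
    have hmul : Matrix.toLin' (gm g) * Matrix.toLin' (gm g) = Matrix.toLin' (gm g * gm g) :=
      (Matrix.toLin'_mul _ _).symm
    rw [pow_two, hmul, hg2, Matrix.toLin'_one]
    rfl
  have hnd : ∀ v : ι → F, (∀ w, ph Q v w = 0) → v = 0 := by
    intro v hv
    exact hQ.1 v (fun w => hv w)
  have hD := hINVB (ph Q) (isHerm_ph Q) hnd h2 _ hT hT2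
  rcases Nat.eq_zero_or_pos (finrank F (LinearMap.ker (Matrix.toLin' (gm g) + 1))) with h0 | hpos
  · refine ⟨⊥, bot_le, ?_, ?_⟩
    · intro u hu v _
      rw [(Submodule.mem_bot F).1 hu]
      exact QuadraticMap.polar_zero_left Q v
    · rw [h0, finrank_bot]
  · obtain ⟨s, hs⟩ : ∃ s, finrank F (LinearMap.ker (Matrix.toLin' (gm g) + 1)) = s + 1 :=
      ⟨_, (Nat.succ_pred_eq_of_pos hpos).symm⟩
    obtain ⟨b, δ, hδ, hli, hspan, hbo, hb1, hbl⟩ := hNF Q h2 _ hD s hs
    have hQb : ∀ j, j ≠ Fin.last s → Q (b j) = 2⁻¹ := by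
      intro j hj
      have h1 := hb1 j hj
      rw [ph_self] at h1
      field_simp
      linear_combination h1
    have hQl : Q (b (Fin.last s)) = 2⁻¹ * δ := by
      have h1 := hbl
      rw [ph_self] at h1
      field_simp
      linear_combination h1
    have hb0 : ∀ j, Q (b j) ≠ 0 := by
      intro j
      by_cases hj : j = Fin.last s
      · rw [hj, hQl]
        exact mul_ne_zero (inv_ne_zero h2) hδ
      · rw [hQb j hj]
        exact inv_ne_zero h2
    obtain ⟨hev, hsq⟩ := hSPINSQ Q h2 hQ hcard g hgΩ hg2 (s + 1) b hb0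
      (fun j l hjl => hbo j l hjl) hspan
    have hodd : Odd s := by
      rw [Nat.even_add_one] at hev
      exact Nat.not_even_iff_odd.1 hev
    have hprod : ∏ j, Q (b j) = (2⁻¹ : F) ^ (s + 1) * δ := by
      rw [Fin.prod_univ_castSucc, hQl]
      have : ∏ j : Fin s, Q (b (Fin.castSucc j)) = (2⁻¹ : F) ^ s := by
        rw [Finset.prod_congr rfl (fun j _ => hQb (Fin.castSucc j) (Fin.castSucc_lt_last j).ne),
          Finset.prod_const, Finset.card_univ, Fintype.card_fin]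
      rw [this, pow_succ]
      ring
    have hδsq : IsSquare δ := by
      have h3 : δ = (2 : F) ^ (s + 1) * ∏ j, Q (b j) := by
        rw [hprod, ← mul_assoc, ← mul_pow, mul_inv_cancel₀ h2, one_pow, one_mul]
      rw [h3]
      exact (hev.isSquare_pow 2).mul hsq
    obtain ⟨A, hA1, hA2, hA3⟩ := hHYP Q h2 s hodd b hli hbo hb1 (by rw [hbl]; exact hδsq)
      (by rw [hbl]; exact hδ) hm1
    refine ⟨A, ?_, hA2, ?_⟩
    · rw [← hspan]
      exact hA1
    · rw [hA3, hs]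

end grp3

end Cfsg.Agent.Helper52.OT5972
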