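/-
helper52: CALL S90 (row S5990) stage R2B: `r = 2 ≠ p`, necessity.  If the condition fails then `d`
is odd, `q ≡ 7 (mod 8)` and `m ≡ 0 (mod 4)`; an element `g ∈ Ω` with `g * g = -1` exists and all
its invariant nondegenerate `m`-spaces have plus type.  (Port of the stage R2B of CALL S74.)
-/
import Mathlib
import Cfsg.Prelude.Def_GeometricClasses
import Cfsg.Prelude.Def_Classical
import Cfsg.Agent.Helper35.S88Defs
import Cfsg.Agent.Helper35.TSSTDM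
import Cfsg.Agent.Helper90.TSR2Main
import Cfsg.Agent.Helper10.S88R2NSC
import Cfsg.Agent.Helper20.S88R2SKSUBTYPE

set_option autoImplicit false

namespace Cfsg.Agent.Helper52.S90

open Module Cfsg Cfsg.Geo Cfsg.Agent.Helper35.S88
open scoped MatrixGroups

variable {F : Type*} [Field F] [Fintype F]

/-- R2B -/
theorem s90_two_bad {p : ℕ} [Fact p.Prime] [CharP F p] {q : ℕ} (hq : Fintype.card F = q)
    (d m : ℕ) (hd : 4 ≤ d) (hm : 2 ≤ m) (hme : Even m) (hmn : m + 2 ≤ 2 * d) (a b : F)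
    (hab : ∀ x y : F, x ^ 2 + a * x * y + b * y ^ 2 = 0 → x = 0 ∧ y = 0) (hp2 : p ≠ 2)
    (hall : AllEll (Cfsg.quadFormMinus (d - 1) F a b) 2 m) :
    Even d ∨ q % 8 ≠ 7 ∨ m % 4 = 2 := by
  classical
  obtain ⟨hQ, hminus⟩ := Cfsg.Agent.Helper35.TS5973.ts_std_minus (F := F) (d - 1) a b hab
  have hoddq : Odd (Fintype.card F) := by
    obtain ⟨n, hp, hc⟩ := FiniteField.card F p
    rw [hc]
    exact (hp.odd_of_ne_two hp2).pow
  have h2 : (2 : F) ≠ 0 := Cfsg.Agent.Helper70.TSR2.r2_two_ne hoddq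
  have hcard : Fintype.card ((Fin (d - 1) ⊕ Fin (d - 1)) ⊕ Fin 2) = 2 * d := by
    rw [Fintype.card_sum, Fintype.card_sum, Fintype.card_fin, Fintype.card_fin]
    omega
  have hne : Nonempty ((Fin (d - 1) ⊕ Fin (d - 1)) ⊕ Fin 2) := Fintype.card_pos_iff.mp (by omega)
  by_contra hcond
  rw [not_or, not_or] at hcond
  obtain ⟨hdo, hq8, hm4⟩ := hcond
  have hq7 : q % 8 = 7 := not_not.mp hq8
  have hm1 : ¬ IsSquare (-1 : F) := by
    rw [FiniteField.isSquare_neg_one_iff, hq]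
    omega
  have hm0 : m % 4 = 0 := by
    obtain ⟨k, hk⟩ := hme
    omega
  have hs2 : IsSquare (2 : F) := by
    rw [FiniteField.isSquare_two_iff, hq]
    omega
  obtain ⟨g, hg2⟩ := Cfsg.Agent.Helper60.TSR2.r2_skew_ex _ hQ h2 d (by omega) hcard hm1
    ⟨fun h => absurd h hminus, fun h => absurd h hdo⟩
  have hgΩ : g ∈ Cfsg.Omega F (Cfsg.quadFormMinus (d - 1) F a b) := by
    rw [Cfsg.Agent.Helper59.TSR2.r2_skew_omega _ hQ h2 d (by omega) hcard g hg2 hm1]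
    exact hs2.pow d
  have hinv := hall (g : GL ((Fin (d - 1) ⊕ Fin (d - 1)) ⊕ Fin 2) F)
    ((Cfsg.Agent.Helper90.TS5973.r2a_mem_omegaGL _ _).mpr ⟨g, hgΩ, rfl⟩)
    ⟨-1, by rw [Cfsg.Agent.Helper90.TS5973.r2a_sq, hg2, Cfsg.Agent.Helper90.TS5973.r2a_neg_one]⟩
    (Cfsg.Agent.Helper10.S88R2.r2e_nonscalar _ hQ h2 hne _
      (Cfsg.Agent.Helper90.TS5973.r2a_iso _ g) hg2)
  obtain ⟨W, ⟨hWdim, hWnd, hWpl⟩, hWinv⟩ := hinv
  have hty := Cfsg.Agent.Helper20.S88R2.r2e_skew_sub_type _ hQ h2 _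
    (Cfsg.Agent.Helper90.TS5973.r2a_iso _ g) hg2 hm1 W hWinv hWnd (m / 2)
    (by rw [hWdim]; omega)
  apply hWpl
  rw [hty, Nat.even_iff]
  omega

end Cfsg.Agent.Helper52.S90
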