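/-
helper52: CALL S90 (row S5990), stage T2G (`r = p = 2`, sufficiency), route through the block
decomposition of sub-CALL S74T2 (pieces BLK2, BLK4, DEC): the arithmetic for the MINUS type and the
passage from a block decomposition of the whole space to an invariant elliptic `m`-space.
-/
import Mathlib
import Cfsg.Prelude.Def_GeometricClasses
import Cfsg.Prelude.Def_Classical
import Cfsg.Agent.Helper35.S88Defs
import Cfsg.Agent.Helper96.OHDefs

set_option autoImplicit false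

namespace Cfsg.Agent.Helper52.S90

open Module Cfsg Cfsg.Geo Cfsg.Agent.Helper35.S88 Cfsg.Agent.Helper96.OH
open scoped MatrixGroups

/-- choice of blocks for an elliptic `m`-space (`m = 2 μ`; `μ` odd: `e' = min e μ`, then
four-blocks, then hyperbolic planes; `μ` even: `d` even, so `h` is odd: one hyperbolic plane
first). -/
theorem s90t2_arith (d m A h e : ℕ) (hsum : 2 * A + h + e = d) (he : Odd e) (hme : Even m)
    (hm : 2 ≤ m) (hmn : m + 2 ≤ 2 * d) (hcond : Even d ∨ m % 4 = 2) :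
    ∃ a' h' e' : ℕ, a' ≤ A ∧ h' ≤ h ∧ e' ≤ e ∧ Odd e' ∧ 4 * a' + 2 * h' + 2 * e' = m := by
  obtain ⟨e₀, he₀⟩ := he
  obtain ⟨μ, hμ⟩ := hme
  by_cases hm4 : m % 4 = 2
  · -- `μ` odd
    obtain ⟨ν, hν⟩ : ∃ ν, μ = 2 * ν + 1 := ⟨μ / 2, by omega⟩
    by_cases h1 : μ ≤ e
    · exact ⟨0, 0, μ, by omega, by omega, h1, ⟨ν, by omega⟩, by omega⟩
    · by_cases h3 : μ - e ≤ 2 * A
      · exact ⟨ν - e₀, 0, e, by omega, by omega, le_refl e, ⟨e₀, he₀⟩, by omega⟩
      · exact ⟨A, μ - e - 2 * A, e, le_refl A, by omega, le_refl e, ⟨e₀, he₀⟩, by omega⟩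
  · -- `μ` even, `d` even, `h` odd
    have hd : Even d := by
      rcases hcond with hc | hc
      · exact hc
      · exact absurd hc hm4
    obtain ⟨δ, hδ⟩ := hd
    obtain ⟨ν, hν⟩ : ∃ ν, μ = 2 * ν := ⟨μ / 2, by omega⟩
    by_cases h1 : μ - 1 ≤ e
    · exact ⟨0, 1, μ - 1, by omega, by omega, h1, ⟨ν - 1, by omega⟩, by omega⟩
    · by_cases h3 : μ - 1 - e ≤ 2 * A
      · exact ⟨ν - 1 - e₀, 1, e, by omega, by omega, le_refl e, ⟨e₀, he₀⟩, by omega⟩
      · exact ⟨A, μ - e - 2 * A, e, le_refl A, by omega, le_refl e, ⟨e₀, he₀⟩, by omega⟩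

variable {ι : Type} [Fintype ι] [DecidableEq ι] {F : Type*} [Field F]

/-- from a block decomposition of the whole space of MINUS type to an invariant elliptic
`m`-space. -/
theorem s90t2g_core (Q : (ι → F) → F) (T : Module.End F (ι → F)) (d m : ℕ)
    (hcard : Fintype.card ι = 2 * d) (hminus : ¬ IsPlusTypeOn Q ⊤) (hm : 2 ≤ m) (hme : Even m)
    (hmn : m + 2 ≤ 2 * d) (hcond : Even d ∨ m % 4 = 2)
    (hdec : ∃ A h e : ℕ, 2 * A + h + e = d ∧ ∀ a' h' e' : ℕ, a' ≤ A → h' ≤ h → e' ≤ e →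
      ∃ X : Submodule F (ι → F), X ≤ ⊤ ∧ X.map T ≤ X ∧ ONd Q X ∧
        finrank F ↥X = 4 * a' + 2 * h' + 2 * e' ∧ (OPl Q X ↔ Even e')) :
    ∃ W : Submodule F (ι → F),
      (Module.finrank F ↥W = m ∧ Cfsg.Geo.IsNondegenerateOn (QuadraticMap.polar Q) W ∧
        ¬ Cfsg.Geo.IsPlusTypeOn Q W) ∧ W.map T ≤ W := by
  obtain ⟨A, h, e, hsum, hall⟩ := hdec
  have he : Odd e := by
    obtain ⟨X, -, -, -, hXdim, hXty⟩ := hall A h e (le_refl A) (le_refl h) (le_refl e)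
    have hXtop : X = ⊤ := by
      apply Submodule.eq_top_of_finrank_eq
      rw [hXdim, Module.finrank_fintype_fun_eq_card, hcard]
      omega
    rw [hXtop] at hXty
    rw [← Nat.not_even_iff_odd]
    exact fun hev => hminus (hXty.mpr hev)
  obtain ⟨a', h', e', ha', hh', he', hodd, hsum'⟩ := s90t2_arith d m A h e hsum he hme hm hmn hcond
  obtain ⟨X, -, hXT, hXnd, hXdim, hXty⟩ := hall a' h' e' ha' hh' he'
  refine ⟨X, ⟨by rw [hXdim, hsum'], hXnd, ?_⟩, hXT⟩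
  intro hpl
  exact (Nat.not_even_iff_odd.mpr hodd) (hXty.mp hpl)

end Cfsg.Agent.Helper52.S90
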