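/-
helper52: CALL S90 (row S5990), stage T2G (`r = p = 2`, sufficiency), assembled from the block
pieces BLK2, BLK4, DEC of sub-CALL S74T2 (generic in the form) and the minus-type arithmetic.
-/
import Mathlib
import Cfsg.Prelude.Def_GeometricClasses
import Cfsg.Prelude.Def_Classical
import Cfsg.Agent.Helper35.S88Defs
import Cfsg.Agent.Helper35.TSSTDM
import Cfsg.Agent.Helper65.OSubAll
import Cfsg.Agent.Helper70.TSR2Z
import Cfsg.Agent.Helper90.TSR2Main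
import Cfsg.Agent.Helper52.S90T2GCore
import Cfsg.Agent.Helper5.S74T2BLK2
import Cfsg.Agent.Helper5.S74T2BLK4
import Cfsg.Agent.Helper36.S74T2DEC

set_option autoImplicit false
set_option linter.unusedSectionVars false
set_option linter.unusedVariables false

namespace Cfsg.Agent.Helper52.S90

open Module Cfsg Cfsg.Geo Cfsg.Agent.Helper35.S88 Cfsg.Agent.Helper96.OH
open scoped MatrixGroups

section general

variable {ι : Type} [Fintype ι] [DecidableEq ι] {F : Type*} [Field F] (Q : (ι → F) → F)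


/-- every nonzero invariant nondegenerate `K` contains an invariant nondegenerate block of
dimension `2`, or of dimension `4` and plus type (assembly of the pieces BLK2, BLK4). -/
theorem s90t2_blk (hQ : IsNondegenerateQuadraticForm Q) (h2 : (2 : F) = 0)
    (T : Module.End F (ι → F)) (hT : OPres Q T) (hTT : T ^ 2 = 1)
    (K : Submodule F (ι → F)) (hKT : K.map T ≤ K) (hK : ONd Q K) (hK0 : K ≠ ⊥) :
    ∃ P : Submodule F (ι → F), P ≤ K ∧ P.map T ≤ P ∧ ONd Q P ∧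
      (finrank F ↥P = 2 ∨ (finrank F ↥P = 4 ∧ OPl Q P)) := by
  by_cases h1 : ∃ v ∈ K, QuadraticMap.polar Q v (T v) ≠ 0
  · obtain ⟨v, hv, hne⟩ := h1
    obtain ⟨P, h1, h2', h3, h4⟩ := Cfsg.Agent.Helper5.S74T2.t2_blk2 Q hQ h2 T hT hTT K hKT v hv hne
    exact ⟨P, h1, h2', h3, Or.inl h4⟩
  · push Not at h1
    by_cases h3 : ∃ v ∈ K, T v ≠ v
    · obtain ⟨v, hv, hne⟩ := h3
      obtain ⟨P, h1', h2', h3', h4, h5⟩ := Cfsg.Agent.Helper5.S74T2.t2_blk4 Q hQ h2 T hT hTT K hKT hK h1 v hv hne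
      exact ⟨P, h1', h2', h3', Or.inr ⟨h4, h5⟩⟩
    · push Not at h3
      obtain ⟨E, hEK, hEnd, hEdim⟩ := Cfsg.Agent.Helper65.OHAll.o_plane_char2 Q hQ h2 K hK hK0
      refine ⟨E, hEK, ?_, hEnd, Or.inl hEdim⟩
      rintro _ ⟨u, hu, rfl⟩
      rw [h3 u (hEK hu)]
      exact hu

end general

variable {F : Type*} [Field F] [Fintype F]

/-- T2G -/
theorem s90_two_even_good {p : ℕ} [Fact p.Prime] [CharP F p] (d m : ℕ) (hd : 4 ≤ d) (hm : 2 ≤ m)
    (hme : Even m) (hmn : m + 2 ≤ 2 * d) (a b : F)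
    (hab : ∀ x y : F, x ^ 2 + a * x * y + b * y ^ 2 = 0 → x = 0 ∧ y = 0) (hp2 : p = 2)
    (hcond : Even d ∨ m % 4 = 2) :
    AllEll (Cfsg.quadFormMinus (d - 1) F a b) 2 m := by
  classical
  obtain ⟨hQ, hminus⟩ := Cfsg.Agent.Helper35.TS5973.ts_std_minus (F := F) (d - 1) a b hab
  have h2 : (2 : F) = 0 := by
    subst hp2
    exact_mod_cast CharP.cast_eq_zero F 2
  have hcard : Fintype.card ((Fin (d - 1) ⊕ Fin (d - 1)) ⊕ Fin 2) = 2 * d := by
    rw [Fintype.card_sum, Fintype.card_sum, Fintype.card_fin, Fintype.card_fin]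
    omega
  have hne : Nonempty ((Fin (d - 1) ⊕ Fin (d - 1)) ⊕ Fin 2) := Fintype.card_pos_iff.mp (by omega)
  intro x hx hz hns
  obtain ⟨z, hz⟩ := hz
  obtain ⟨g, hgΩ, rfl⟩ := (Cfsg.Agent.Helper90.TS5973.r2a_mem_omegaGL _ _).mp hx
  have hM := Cfsg.Agent.Helper90.TS5973.r2a_iso (Cfsg.quadFormMinus (d - 1) F a b) g
  rw [Cfsg.Agent.Helper90.TS5973.r2a_sq] at hz
  have hz1 : z = 1 := by
    rcases Cfsg.Agent.Helper70.TSR2.r2_z _ hQ hne _ hM z hz with h | h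
    · exact h
    · rw [h]
      linear_combination (-1 : F) * h2
  rw [hz1, one_smul] at hz
  have hT : OPres (Cfsg.quadFormMinus (d - 1) F a b)
      (Matrix.toLin' ((g : GL ((Fin (d - 1) ⊕ Fin (d - 1)) ⊕ Fin 2) F) :
        Matrix ((Fin (d - 1) ⊕ Fin (d - 1)) ⊕ Fin 2) ((Fin (d - 1) ⊕ Fin (d - 1)) ⊕ Fin 2) F)) := by
    intro v
    rw [Matrix.toLin'_apply]
    exact hM v
  have hTT : (Matrix.toLin' ((g : GL ((Fin (d - 1) ⊕ Fin (d - 1)) ⊕ Fin 2) F) :
        Matrix ((Fin (d - 1) ⊕ Fin (d - 1)) ⊕ Fin 2) ((Fin (d - 1) ⊕ Fin (d - 1)) ⊕ Fin 2) F)) ^ 2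
        = 1 := by
    rw [pow_two, Module.End.mul_eq_comp, ← Matrix.toLin'_mul, hz, Matrix.toLin'_one]
    rfl
  have hdec := Cfsg.Agent.Helper36.S74T2.t2_dec _ hQ _ hT hTT
    (fun K hKT hK hK0 => s90t2_blk _ hQ h2 _ hT hTT K hKT hK hK0) d ⊤
    (fun _ _ => Submodule.mem_top) (ond_top _ hQ)
    (by rw [finrank_top, Module.finrank_fintype_fun_eq_card, hcard])
  exact s90t2g_core _ _ d m hcard hminus hm hme hmn hcond hdec

end Cfsg.Agent.Helper52.S90
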