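import Mathlib
import Cfsg.Prelude.Def_Local

/-!
# PIECE P16 of CALL S3797 (helper32)

`shaw_lin`: the quotient `V = E / Z` as an elementary abelian 2-group with the conjugation
action of `G` and the squaring map `Q : V → G`.
-/

set_option autoImplicit false

namespace Cfsg.Agent.Helper52

open Subgroup

universe u

variable {G : Type u} [Group G] [Finite G]

theorem shaw_lin (E Z : Subgroup G) [E.Normal] [Z.Normal] (hZE : Z ≤ E)
    (hsq : ∀ x ∈ E, x * x ∈ Z) (hZc : ∀ z ∈ Z, ∀ x ∈ E, x * z = z * x)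
    (hZ2 : ∀ z ∈ Z, z * z = 1) :
    ∃ (V : Type u) (_ : Group V) (_ : Finite V) (π : ↥E →* V) (ρ : G →* MulAut V) (Q : V → G),
      Function.Surjective π ∧ (∀ x y : ↥E, π x = π y ↔ (x : G)⁻¹ * (y : G) ∈ Z) ∧
      (∀ (g : G) (x : ↥E) (hx : g * (x : G) * g⁻¹ ∈ E), ρ g (π x) = π ⟨g * (x : G) * g⁻¹, hx⟩) ∧
      (∀ x : ↥E, Q (π x) = (x : G) * (x : G)) ∧
      (∀ v : V, v * v = 1) ∧ (∀ a b : V, a * b = b * a) ∧
      Nat.card V * Nat.card Z = Nat.card E := by
  classical
  set N : Subgroup ↥E := Z.subgroupOf E with hN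
  have hNn : N.Normal := inferInstance
  have hmemN : ∀ x : ↥E, x ∈ N ↔ (x : G) ∈ Z := fun x => Subgroup.mem_subgroupOf
  have hmap : ∀ g : G, N.map ((MulAut.conjNormal g : MulAut ↥E) : ↥E →* ↥E) = N := by
    intro g
    apply le_antisymm
    · rintro _ ⟨n, hn, rfl⟩
      rw [hmemN]
      show ((MulAut.conjNormal g : MulAut ↥E) n : G) ∈ Z
      rw [MulAut.conjNormal_apply]
      exact ‹Z.Normal›.conj_mem _ ((hmemN n).mp hn) g
    · intro n hn
      refine ⟨(MulAut.conjNormal g : MulAut ↥E).symm n, ?_, ?_⟩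
      · rw [SetLike.mem_coe, hmemN, MulAut.conjNormal_symm_apply]
        have := ‹Z.Normal›.conj_mem _ ((hmemN n).mp hn) g⁻¹
        simpa using this
      · exact MulEquiv.apply_symm_apply _ n
  let ρ0 : G → MulAut (↥E ⧸ N) := fun g =>
    QuotientGroup.congr N N (MulAut.conjNormal g : MulAut ↥E) (hmap g)
  have hρ0 : ∀ g (x : ↥E), ρ0 g (QuotientGroup.mk x) =
      QuotientGroup.mk ((MulAut.conjNormal g : MulAut ↥E) x) := fun g x => rfl
  let ρ : G →* MulAut (↥E ⧸ N) := MonoidHom.mk' ρ0 (by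
    intro g h
    ext v
    induction v using QuotientGroup.induction_on with
    | H x =>
      rw [MulAut.mul_apply, hρ0, hρ0, hρ0, map_mul, MulAut.mul_apply])
  let Q : ↥E ⧸ N → G := fun v => Quotient.liftOn' v (fun x : ↥E => (x : G) * (x : G)) (by
    intro a b hab
    rw [QuotientGroup.leftRel_apply, hmemN] at hab
    have hz := hab
    have hcomm := hZc _ hz (a : G) a.2
    have hb : (b : G) = (a : G) * ((a⁻¹ * b : ↥E) : G) := by
      simp
    show (a : G) * (a : G) = (b : G) * (b : G)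
    rw [hb]
    have e : (a : G) * ((a⁻¹ * b : ↥E) : G) * ((a : G) * ((a⁻¹ * b : ↥E) : G))
        = (a : G) * (((a⁻¹ * b : ↥E) : G) * (a : G)) * ((a⁻¹ * b : ↥E) : G) := by group
    rw [e, ← hcomm]
    have e2 : (a : G) * ((a : G) * ((a⁻¹ * b : ↥E) : G)) * ((a⁻¹ * b : ↥E) : G)
        = (a : G) * (a : G) * (((a⁻¹ * b : ↥E) : G) * ((a⁻¹ * b : ↥E) : G)) := by group
    rw [e2, hZ2 _ hz, mul_one])
  have hsqV : ∀ v : ↥E ⧸ N, v * v = 1 := by
    intro v
    induction v using QuotientGroup.induction_on with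
    | H x =>
      rw [← QuotientGroup.mk_mul, QuotientGroup.eq_one_iff, hmemN]
      exact hsq _ x.2
  have hinvV : ∀ v : ↥E ⧸ N, v⁻¹ = v := fun v => inv_eq_of_mul_eq_one_left (hsqV v)
  refine ⟨↥E ⧸ N, inferInstance, inferInstance, QuotientGroup.mk' N, ρ, Q,
    QuotientGroup.mk'_surjective N, ?_, ?_, ?_, hsqV, ?_, ?_⟩
  · intro x y
    rw [QuotientGroup.mk'_apply, QuotientGroup.mk'_apply, QuotientGroup.eq, hmemN]
    rfl
  · intro g x hx
    show ρ0 g (QuotientGroup.mk x) = QuotientGroup.mk _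
    rw [hρ0]
    congr 1
  · intro x
    rfl
  · intro a b
    calc a * b = a⁻¹ * b⁻¹ := by rw [hinvV a, hinvV b]
      _ = (b * a)⁻¹ := by rw [mul_inv_rev]
      _ = b * a := hinvV _
  · have h1 := Subgroup.card_eq_card_quotient_mul_card_subgroup N
    have h2 : Nat.card N = Nat.card Z := Nat.card_congr (Subgroup.subgroupOfEquivOfLe hZE).toEquiv
    rw [h1, h2]

end Cfsg.Agent.Helper52
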