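import Mathlib
import Cfsg.Prelude.Def_Local

/-!
# PIECE P18 of CALL S3797 (helper32)

`shaw_exists_E`: for `Z ≤ P` central in `P`, the set
`E = {x ∈ P | x² ∈ Z, [x, P] ⊆ Z}` is a normal subgroup.
-/

set_option autoImplicit false

namespace Cfsg.Agent.Helper52

open Subgroup

universe u

variable {G : Type u} [Group G] [Finite G]

theorem shaw_exists_E (P Z : Subgroup G) [P.Normal] [Z.Normal] (hZP : Z ≤ P)
    (hZc : ∀ z ∈ Z, ∀ g ∈ P, g * z = z * g) :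
    ∃ E : Subgroup G, E.Normal ∧
      ∀ x : G, x ∈ E ↔ (x ∈ P ∧ x * x ∈ Z ∧ ∀ g ∈ P, x⁻¹ * g⁻¹ * x * g ∈ Z) := by
  let E : Subgroup G :=
    { carrier := {x | x ∈ P ∧ x * x ∈ Z ∧ ∀ g ∈ P, x⁻¹ * g⁻¹ * x * g ∈ Z}
      mul_mem' := by
        rintro x y ⟨hxP, hx2, hxc⟩ ⟨hyP, hy2, hyc⟩
        refine ⟨P.mul_mem hxP hyP, ?_, ?_⟩
        · have hc := hyc x hxP
          have hcomm := hZc _ hc y hyP
          have e : x * y * (x * y) = x * x * (y * ((y⁻¹ * x⁻¹ * y * x) * y)) := by group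
          rw [e, ← hcomm]
          have e2 : x * x * (y * (y * (y⁻¹ * x⁻¹ * y * x)))
              = (x * x) * (y * y) * (y⁻¹ * x⁻¹ * y * x) := by group
          rw [e2]
          exact Z.mul_mem (Z.mul_mem hx2 hy2) hc
        · intro g hg
          have hcx := hxc g hg
          have hcomm := hZc _ hcx y⁻¹ (P.inv_mem hyP)
          have e : (x * y)⁻¹ * g⁻¹ * (x * y) * g
              = (y⁻¹ * (x⁻¹ * g⁻¹ * x * g)) * (g⁻¹ * y * g) := by group
          rw [e, hcomm]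
          have e2 : x⁻¹ * g⁻¹ * x * g * y⁻¹ * (g⁻¹ * y * g)
              = (x⁻¹ * g⁻¹ * x * g) * (y⁻¹ * g⁻¹ * y * g) := by group
          rw [e2]
          exact Z.mul_mem hcx (hyc g hg)
      one_mem' := ⟨P.one_mem, by simp [Z.one_mem], fun g _ => by simp [Z.one_mem]⟩
      inv_mem' := by
        rintro x ⟨hxP, hx2, hxc⟩
        refine ⟨P.inv_mem hxP, ?_, ?_⟩
        · have e : x⁻¹ * x⁻¹ = (x * x)⁻¹ := by group
          rw [e]
          exact Z.inv_mem hx2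
        · intro g hg
          have hcx := hxc g hg
          have hcomm := hZc _ (Z.inv_mem hcx) x hxP
          have e : x⁻¹⁻¹ * g⁻¹ * x⁻¹ * g = x * (x⁻¹ * g⁻¹ * x * g)⁻¹ * x⁻¹ := by group
          rw [e, hcomm, mul_inv_cancel_right]
          exact Z.inv_mem hcx }
  refine ⟨E, ⟨?_⟩, fun x => Iff.rfl⟩
  rintro x ⟨hxP, hx2, hxc⟩ h
  refine ⟨‹P.Normal›.conj_mem x hxP h, ?_, ?_⟩
  · have e : h * x * h⁻¹ * (h * x * h⁻¹) = h * (x * x) * h⁻¹ := by group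
    rw [e]
    exact ‹Z.Normal›.conj_mem _ hx2 h
  · intro g hg
    have hg' : h⁻¹ * g * h ∈ P := by
      have := ‹P.Normal›.conj_mem g hg h⁻¹
      simpa using this
    have h1 := hxc _ hg'
    have e : (h * x * h⁻¹)⁻¹ * g⁻¹ * (h * x * h⁻¹) * g
        = h * (x⁻¹ * (h⁻¹ * g * h)⁻¹ * x * (h⁻¹ * g * h)) * h⁻¹ := by group
    rw [e]
    exact ‹Z.Normal›.conj_mem _ h1 h

end Cfsg.Agent.Helper52
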