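import Mathlib
import Cfsg.Prelude.Def_Local
import Cfsg.Agent.S0065
import Cfsg.Agent.Helper53.ShawSp

/-!
# Faithfulness of an odd-order element on a critical subgroup (PIECE P6 of CALL S3797)
-/

set_option autoImplicit false

open Subgroup

namespace Cfsg.Agent.Helper52

universe u

variable {G : Type u} [Group G] [Finite G]

/-- If the commutator `x⁻¹ u⁻¹ x u` lies in a subgroup `Z` of the 2-group `P` centralized by the
odd-order element `u`, then `u` commutes with `x`. -/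
theorem shawaux_comm_of_mem (P Z : Subgroup G) (hP : IsPGroup 2 P) (hZP : Z ≤ P)
    (u : G) (hu : Odd (orderOf u)) (huZ : ∀ z ∈ Z, u * z = z * u)
    (x : G) (hx : x⁻¹ * u⁻¹ * x * u ∈ Z) : u * x = x * u := by
  obtain ⟨z, hz⟩ : ∃ z : G, z = x⁻¹ * u⁻¹ * x * u := ⟨_, rfl⟩
  rw [← hz] at hx
  have h1 : u⁻¹ * x * u = x * z := by rw [hz]; group
  have hzu : Commute u z := huZ z hx
  have key : ∀ j : ℕ, (u⁻¹) ^ j * x * u ^ j = x * z ^ j := by
    intro j
    induction j with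
    | zero => simp
    | succ j ih =>
      have hc : Commute u (z ^ j) := hzu.pow_right j
      calc (u⁻¹) ^ (j + 1) * x * u ^ (j + 1)
          = u⁻¹ * ((u⁻¹) ^ j * x * u ^ j) * u := by
            rw [pow_succ', pow_succ]; simp only [mul_assoc]
        _ = u⁻¹ * (x * z ^ j) * u := by rw [ih]
        _ = u⁻¹ * x * (z ^ j * u) := by simp only [mul_assoc]
        _ = u⁻¹ * x * (u * z ^ j) := by rw [hc.eq]
        _ = (u⁻¹ * x * u) * z ^ j := by simp only [mul_assoc]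
        _ = x * z ^ (j + 1) := by rw [h1, pow_succ', mul_assoc]
  have hm := key (orderOf u)
  rw [inv_pow, pow_orderOf_eq_one, inv_one, one_mul, mul_one] at hm
  have hzm : z ^ orderOf u = 1 := by
    have h2 : x * z ^ orderOf u = x * 1 := by rw [mul_one]; exact hm.symm
    exact mul_left_cancel h2
  obtain ⟨k, hk⟩ := hP ⟨z, hZP hx⟩
  have hk' : z ^ (2 ^ k) = 1 := by
    have := congrArg Subtype.val hk
    simpa using this
  have hd1 : orderOf z ∣ orderOf u := orderOf_dvd_of_pow_eq_one hzm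
  have hd2 : orderOf z ∣ 2 ^ k := orderOf_dvd_of_pow_eq_one hk'
  have hcop : Nat.Coprime (orderOf u) (2 ^ k) :=
    Nat.Coprime.pow_right k (Nat.coprime_two_right.mpr hu)
  have hz1 : z = 1 := by
    have h3 : orderOf z ∣ Nat.gcd (orderOf u) (2 ^ k) := Nat.dvd_gcd hd1 hd2
    rw [hcop.gcd_eq_one] at h3
    exact orderOf_eq_one_iff.mp (Nat.dvd_one.mp h3)
  have h2 : u⁻¹ * x * u = x := by rw [h1, hz1, mul_one]
  calc u * x = u * (u⁻¹ * x * u) := by rw [h2]
    _ = x * u := by group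

/-- The commutator subgroup `[P, u]` lies in the normal subgroup `P`. -/
theorem shawaux_R_le (P : Subgroup G) [P.Normal] (u : G) :
    Subgroup.closure {y : G | ∃ g ∈ P, y = g⁻¹ * u⁻¹ * g * u} ≤ P := by
  rw [Subgroup.closure_le]
  rintro y ⟨g, hg, rfl⟩
  have h1 : u⁻¹ * g * u ∈ P := by
    have := ‹P.Normal›.conj_mem g hg u⁻¹
    simpa using this
  have h2 := P.mul_mem (P.inv_mem hg) h1
  simpa [mul_assoc] using h2

/-- The commutator subgroup `[P, u]` is normalized by `P`. -/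
theorem shawaux_R_norm (P : Subgroup G) (u : G) :
    ∀ h ∈ P, ∀ r ∈ Subgroup.closure {y : G | ∃ g ∈ P, y = g⁻¹ * u⁻¹ * g * u},
      h * r * h⁻¹ ∈ Subgroup.closure {y : G | ∃ g ∈ P, y = g⁻¹ * u⁻¹ * g * u} := by
  intro h hh r hr
  induction hr using Subgroup.closure_induction with
  | mem y hy =>
    obtain ⟨g, hg, rfl⟩ := hy
    have e : h * (g⁻¹ * u⁻¹ * g * u) * h⁻¹
        = ((g * h⁻¹)⁻¹ * u⁻¹ * (g * h⁻¹) * u) * ((h⁻¹)⁻¹ * u⁻¹ * h⁻¹ * u)⁻¹ := by group
    rw [e]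
    exact Subgroup.mul_mem _
      (Subgroup.subset_closure ⟨g * h⁻¹, P.mul_mem hg (P.inv_mem hh), rfl⟩)
      (Subgroup.inv_mem _ (Subgroup.subset_closure ⟨h⁻¹, P.inv_mem hh, rfl⟩))
  | one => simp
  | mul x y _ _ hx hy =>
    have e : h * (x * y) * h⁻¹ = (h * x * h⁻¹) * (h * y * h⁻¹) := by group
    rw [e]; exact Subgroup.mul_mem _ hx hy
  | inv x _ hx =>
    have e : h * x⁻¹ * h⁻¹ = (h * x * h⁻¹)⁻¹ := by group
    rw [e]; exact Subgroup.inv_mem _ hx

/-- In a 2-group `P` with a central subgroup `Z`, a subgroup `R ≤ P` normalized by `P` and not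
contained in `Z` contains an element outside `Z` whose square and whose commutators with `P`
lie in `Z`. -/
theorem shawaux_exists_central_mod (P Z R : Subgroup G) (hP : IsPGroup 2 P) (hZP : Z ≤ P)
    (hZc : ∀ z ∈ Z, ∀ g ∈ P, g * z = z * g) (hRP : R ≤ P)
    (hRn : ∀ h ∈ P, ∀ r ∈ R, h * r * h⁻¹ ∈ R) (hRZ : ¬ R ≤ Z) :
    ∃ r ∈ R, r ∉ Z ∧ r * r ∈ Z ∧ ∀ g ∈ P, r⁻¹ * g⁻¹ * r * g ∈ Z := by
  classical
  have hN : (Z.subgroupOf P).Normal := by
    constructor
    intro n hn g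
    have hcomm := hZc n.1 (Subgroup.mem_subgroupOf.mp hn) g.1 g.2
    have e : g * n * g⁻¹ = n := by
      apply Subtype.ext
      simp only [Subgroup.coe_mul, Subgroup.coe_inv]
      rw [hcomm]; group
    rw [e]; exact hn
  have hRnorm : (R.subgroupOf P).Normal := by
    constructor
    intro n hn g
    rw [Subgroup.mem_subgroupOf] at hn ⊢
    simpa using hRn g.1 g.2 n.1 hn
  have hQ : IsPGroup 2 (↥P ⧸ Z.subgroupOf P) := hP.to_quotient (Z.subgroupOf P)
  have : Fact (Nat.Prime 2) := ⟨Nat.prime_two⟩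
  have : Group.IsNilpotent (↥P ⧸ Z.subgroupOf P) := hQ.isNilpotent
  obtain ⟨M, hM⟩ : ∃ M : Subgroup (↥P ⧸ Z.subgroupOf P),
      M = (R.subgroupOf P).map (QuotientGroup.mk' (Z.subgroupOf P)) := ⟨_, rfl⟩
  have hMn : M.Normal := by
    rw [hM]; exact hRnorm.map _ (QuotientGroup.mk'_surjective _)
  have hMne : M ≠ ⊥ := by
    intro hbot
    apply hRZ
    intro r hr
    have hmem : QuotientGroup.mk' (Z.subgroupOf P) ⟨r, hRP hr⟩ ∈ M := by
      rw [hM]
      exact Subgroup.mem_map_of_mem _ (Subgroup.mem_subgroupOf.mpr hr)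
    rw [hbot, Subgroup.mem_bot, QuotientGroup.mk'_apply, QuotientGroup.eq_one_iff] at hmem
    exact Subgroup.mem_subgroupOf.mp hmem
  have hne := Cfsg.Agent.S0065.result M hMne
  have hK : IsPGroup 2 ↥(M ⊓ Subgroup.center (↥P ⧸ Z.subgroupOf P)) := hQ.to_subgroup _
  have hcard : 2 ∣ Nat.card ↥(M ⊓ Subgroup.center (↥P ⧸ Z.subgroupOf P)) := by
    rcases hK.card_eq_or_dvd with h | h
    · exact absurd ((Subgroup.eq_bot_iff_card _).mpr h) hne
    · exact h
  obtain ⟨c, hc⟩ := exists_prime_orderOf_dvd_card' 2 hcard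
  have hcM : c.1 ∈ M := c.2.1
  have hcC : c.1 ∈ Subgroup.center (↥P ⧸ Z.subgroupOf P) := c.2.2
  obtain ⟨r', hr', hrc⟩ := Subgroup.mem_map.mp (hM.le hcM)
  have hc1 : c.1 ≠ 1 := by
    intro h
    have : c = 1 := Subtype.ext h
    rw [this, orderOf_one] at hc
    omega
  have hc2 : c.1 * c.1 = 1 := by
    have h := pow_orderOf_eq_one c
    rw [hc] at h
    have h' := congrArg Subtype.val h
    simpa [pow_two] using h'
  refine ⟨r'.1, Subgroup.mem_subgroupOf.mp hr', ?_, ?_, ?_⟩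
  · intro hrZ
    apply hc1
    rw [← hrc, QuotientGroup.mk'_apply, QuotientGroup.eq_one_iff]
    exact Subgroup.mem_subgroupOf.mpr hrZ
  · rw [← hrc, ← map_mul, QuotientGroup.mk'_apply, QuotientGroup.eq_one_iff,
      Subgroup.mem_subgroupOf] at hc2
    simpa using hc2
  · intro g hg
    have hcomm := (Subgroup.mem_center_iff.mp hcC) (QuotientGroup.mk' (Z.subgroupOf P) ⟨g, hg⟩)
    rw [← hrc] at hcomm
    have h3 : QuotientGroup.mk' (Z.subgroupOf P) (r'⁻¹ * (⟨g, hg⟩ : ↥P)⁻¹ * r' * ⟨g, hg⟩) = 1 := by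
      rw [map_mul, map_mul, map_mul, map_inv, map_inv, mul_assoc, ← hcomm]
      group
    rw [QuotientGroup.mk'_apply, QuotientGroup.eq_one_iff, Subgroup.mem_subgroupOf] at h3
    simpa using h3

/-- Faithfulness, with the conclusion of PIECE P5 as a hypothesis. -/
theorem shaw_faith_of_sp (P Z : Subgroup G) [P.Normal] (hP : IsPGroup 2 P) (hZP : Z ≤ P)
    (hZc : ∀ z ∈ Z, ∀ g ∈ P, g * z = z * g) (hinv : ∀ x ∈ P, x * x = 1 → x ∈ Z)
    (hCP : centralizer (P : Set G) ≤ P)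
    (u : G) (hu : Odd (orderOf u)) (huZ : ∀ z ∈ Z, u * z = z * u)
    (huE : ∀ x ∈ P, x * x ∈ Z → (∀ g ∈ P, x⁻¹ * g⁻¹ * x * g ∈ Z) → x⁻¹ * u⁻¹ * x * u ∈ Z)
    (hsp : ∀ x ∈ Subgroup.closure {y : G | ∃ g ∈ P, y = g⁻¹ * u⁻¹ * g * u},
      u * x = x * u → x * x = 1) :
    u = 1 := by
  have h1' : ∀ x : G, x⁻¹ * u⁻¹ * x * u ∈ Z → u * x = x * u :=
    fun x hx => shawaux_comm_of_mem P Z hP hZP u hu huZ x hx
  have hcent : ∀ g ∈ P, u * g = g * u := by
    by_contra hne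
    push Not at hne
    obtain ⟨g, hgP, hgu⟩ := hne
    have hRZ : ¬ Subgroup.closure {y : G | ∃ g ∈ P, y = g⁻¹ * u⁻¹ * g * u} ≤ Z := by
      intro hle
      exact hgu (h1' g (hle (Subgroup.subset_closure ⟨g, hgP, rfl⟩)))
    obtain ⟨r, hrR, hrZ, hrr, hrc⟩ := shawaux_exists_central_mod P Z _ hP hZP hZc
      (shawaux_R_le P u) (shawaux_R_norm P u) hRZ
    have hrP : r ∈ P := shawaux_R_le P u hrR
    have hur : u * r = r * u := h1' r (huE r hrP hrr hrc)
    exact hrZ (hinv r hrP (hsp r hrR hur))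
  have huC : u ∈ centralizer (P : Set G) := by
    rw [Subgroup.mem_centralizer_iff]
    intro h hh
    exact (hcent h hh).symm
  have huP : u ∈ P := hCP huC
  obtain ⟨k, hk⟩ := hP ⟨u, huP⟩
  have hk' : u ^ (2 ^ k) = 1 := by
    have := congrArg Subtype.val hk
    simpa using this
  have hd : orderOf u ∣ 2 ^ k := orderOf_dvd_of_pow_eq_one hk'
  have hcop : Nat.Coprime (orderOf u) (2 ^ k) :=
    Nat.Coprime.pow_right k (Nat.coprime_two_right.mpr hu)
  exact orderOf_eq_one_iff.mp (Nat.Coprime.eq_one_of_dvd hcop hd)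

/-- PIECE P6 of CALL S3797: an odd-order element acting trivially on the critical quotient and on
`Z` is trivial. -/
theorem shaw_faith (P Z : Subgroup G) [P.Normal] (hP : IsPGroup 2 P) (hZP : Z ≤ P)
    (hZc : ∀ z ∈ Z, ∀ g ∈ P, g * z = z * g) (hinv : ∀ x ∈ P, x * x = 1 → x ∈ Z)
    (hCP : centralizer (P : Set G) ≤ P)
    (u : G) (hu : Odd (orderOf u)) (huZ : ∀ z ∈ Z, u * z = z * u)
    (huE : ∀ x ∈ P, x * x ∈ Z → (∀ g ∈ P, x⁻¹ * g⁻¹ * x * g ∈ Z) → x⁻¹ * u⁻¹ * x * u ∈ Z) :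
    u = 1 := by
  refine shaw_faith_of_sp P Z hP hZP hZc hinv hCP u hu huZ huE ?_
  refine Cfsg.Agent.Helper53.shaw_sp P hP u hu ?_ ?_
  · intro x hx
    exact ‹P.Normal›.conj_mem x hx u
  · intro x hx hxx
    exact huZ x (hinv x hx hxx)

end Cfsg.Agent.Helper52
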