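import Mathlib
import Cfsg.Agent.Helper13.TLDefs
import Cfsg.Agent.Helper37.TKJTXFER
import Cfsg.Agent.Helper52.TKMODEL1
import Cfsg.Agent.Helper52.TLUCAYLEY

set_option autoImplicit false

/-!
# CALL S5954 piece UMODELODD (helper52), part 1: the model from an abstract transfer statement.
-/

namespace Cfsg.Agent.Helper52.TI5954

open Module Polynomial
open Cfsg.Agent.Helper13.TIu Cfsg.Agent.Helper13.TIsp
open Cfsg.Agent.Helper42.SpModels

section std2

variable {F : Type*} [Field F] {σ : F →+* F}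

/-- the twist `u ↦ κ • σ ∘ u` -/
def twS (σ : F →+* F) (κ : F) (k : ℕ) : (Fin (k + 1) → F) →ₛₗ[σ] (Fin (k + 1) → F) where
  toFun u := fun i => κ * σ (u i)
  map_add' u v := by
    funext i
    simp [mul_add]
  map_smul' c u := by
    funext i
    simp only [Pi.smul_apply, smul_eq_mul, map_mul]
    ring

theorem twS_apply (κ : F) (k : ℕ) (u : Fin (k + 1) → F) (i : Fin (k + 1)) :
    twS σ κ k u i = κ * σ (u i) := rfl

/-- the twisted reverse form -/
noncomputable def twForm (σ : F →+* F) (κ : F) (k : ℕ) :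
    (Fin (k + 1) → F) →ₛₗ[σ] (Fin (k + 1) → F) →ₗ[F] F :=
  LinearMap.comp (σ₁₂ := σ) (σ₂₃ := RingHom.id F) (revForm F k) (twS σ κ k)

theorem twForm_apply (κ : F) (k : ℕ) (u v : Fin (k + 1) → F) :
    twForm σ κ k u v = ∑ i, (-1 : F) ^ i.val * (κ * σ (u i)) * v (Fin.rev i) := by
  show revForm F k (twS σ κ k u) v = _
  rw [revForm_apply]
  rfl

theorem twForm_symm (hσ2 : ∀ a, σ (σ a) = a) (κ : F) (k : ℕ) (hκ : σ κ = (-1) ^ k * κ) :
    (twForm σ κ k).IsSymm := by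
  rw [LinearMap.isSymm_def]
  intro u v
  rw [twForm_apply, twForm_apply, map_sum]
  rw [← Equiv.sum_comp Fin.revPerm (fun i => (-1 : F) ^ i.val * (κ * σ (v i)) * u (Fin.rev i))]
  apply Finset.sum_congr rfl
  intro i _
  simp only [Fin.revPerm_apply, Fin.rev_rev, map_mul, map_pow, map_neg, map_one, hσ2, hκ]
  have hsum : (Fin.rev i).val + i.val = k := by
    rw [Fin.val_rev]
    have := i.2
    omega
  have h4 : (-1 : F) ^ (Fin.rev i).val * (-1 : F) ^ i.val = (-1) ^ k := by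
    rw [← pow_add, hsum]
  have h5 : (-1 : F) ^ i.val * (-1 : F) ^ i.val = 1 := by
    rw [← pow_add, ← two_mul]
    exact (even_two_mul _).neg_one_pow
  have h6 : (-1 : F) ^ k * (-1 : F) ^ k = 1 := by
    rw [← pow_add, ← two_mul]
    exact (even_two_mul _).neg_one_pow
  have h7 : (-1 : F) ^ i.val * (-1 : F) ^ k = (-1) ^ (Fin.rev i).val := by
    linear_combination -((-1 : F) ^ i.val) * h4 + (-1 : F) ^ (Fin.rev i).val * h5
  rw [← h7]
  ring

theorem twForm_nd (κ : F) (hκ0 : κ ≠ 0) (k : ℕ) : UNd (twForm σ κ k) ⊤ := by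
  intro v _ h
  have h1 : twS σ κ k v = 0 := revForm_nondeg F k _ (fun w => h w Submodule.mem_top)
  funext i
  have h2 := congrFun h1 i
  rw [twS_apply] at h2
  rcases mul_eq_zero.1 h2 with h3 | h3
  · exact absurd h3 hκ0
  · exact (map_eq_zero σ).1 h3

theorem twForm_shift (κ : F) (k : ℕ) (u v : Fin (k + 1) → F) :
    twForm σ κ k (shiftUp F k u) v = - twForm σ κ k u (shiftUp F k v) := by
  show revForm F k (twS σ κ k (shiftUp F k u)) v = - revForm F k (twS σ κ k u) (shiftUp F k v)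
  have h1 : twS σ κ k (shiftUp F k u) = shiftUp F k (twS σ κ k u) := by
    funext i
    rw [twS_apply, shiftUp_apply, shiftUp_apply]
    split_ifs with h
    · rfl
    · rw [map_zero, mul_zero]
  rw [h1, revForm_shift]

theorem umodel_odd_aux (hσ2 : ∀ a, σ (σ a) = a) (hσne : σ ≠ RingHom.id F) (p : ℕ)
    [Fact p.Prime] [CharP F p] (h2 : (2 : F) ≠ 0) (k : ℕ) (hap : k + 1 ≤ p)
    (hx : ∀ (B : (Fin (k + 1) → F) →ₛₗ[σ] (Fin (k + 1) → F) →ₗ[F] F), B.IsSymm → UNd B ⊤ →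
      ∃ Φ : (Fin (k + 1) → F) ≃ₗ[F] (Fin (k + 1) → F),
        ∀ u v, stdH σ (k + 1) (Φ u) (Φ v) = B u v) :
    ∃ T : Module.End F (Fin (k + 1) → F), UPres (stdH σ (k + 1)) T ∧ T ^ p = 1 ∧
      JT (T - 1) ⊤ (Multiset.replicate 1 (k + 1)) := by
  -- the scalar `κ`
  obtain ⟨κ, hκ0, hκ⟩ : ∃ κ : F, κ ≠ 0 ∧ σ κ = (-1) ^ k * κ := by
    rcases Nat.even_or_odd k with hk | hk
    · exact ⟨1, one_ne_zero, by rw [map_one, hk.neg_one_pow, one_mul]⟩
    · have hc : ∃ c : F, σ c ≠ c := by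
        by_contra hcon
        push Not at hcon
        exact hσne (RingHom.ext hcon)
      obtain ⟨c, hc⟩ := hc
      refine ⟨c - σ c, fun h => hc (sub_eq_zero.1 h).symm, ?_⟩
      rw [map_sub, hσ2, hk.neg_one_pow]
      ring
  obtain ⟨U, hUB, hUp, hUk⟩ := ucayley_ker (twForm σ κ k) (shiftUp F k) p h2
    (shiftUp_pow_eq_zero F k p hap) (twForm_shift κ k)
  obtain ⟨Φ, hΦ⟩ := hx (twForm σ κ k) (twForm_symm hσ2 κ k hκ) (twForm_nd κ hκ0 k)
  have hT : ∀ v, (Φ.conj U) (Φ v) = Φ (U v) := by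
    intro v
    simp [LinearEquiv.conj_apply]
  have hgpow : ∀ j : ℕ, ∀ v, ((Φ.conj U) ^ j) (Φ v) = Φ ((U ^ j) v) := by
    intro j
    induction j with
    | zero => intro v; simp
    | succ j ih =>
      intro v
      rw [pow_succ, Module.End.mul_apply, hT, ih, pow_succ, Module.End.mul_apply]
  refine ⟨Φ.conj U, ?_, ?_, ?_⟩
  · intro x y
    obtain ⟨u, rfl⟩ := Φ.surjective x
    obtain ⟨v, rfl⟩ := Φ.surjective y
    rw [hT, hT, hΦ, hΦ, hUB]
  · apply LinearMap.ext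
    intro w
    obtain ⟨v, rfl⟩ := Φ.surjective w
    rw [hgpow, hUp]
    simp
  · apply Cfsg.Agent.Helper37.TI5956.jt_xfer Φ (U - 1) (Φ.conj U - 1)
    · intro v
      simp [hT]
    · intro j
      rw [hUk j, top_inf_eq, Cfsg.Agent.Helper52.TI5956.model_one_shift_ker]
      simp

end std2

end Cfsg.Agent.Helper52.TI5954
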