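import Mathlib
import Cfsg.Agent.Helper97.TMDefs

set_option autoImplicit false

/-!
Helper library (helper52), piece SPE of CALL S2415 (helper97): a subspace containing `f_i`, stable
under the unipotent element `gU` and a torus element, contains `e_i`, `z₁`, `z₂`.
-/

universe u

namespace Cfsg.Agent.Helper52

open Cfsg Matrix Cfsg.Agent.Helper45 Cfsg.Agent.Helper98 Cfsg.Agent.Helper97.TM

section

variable {k : ℕ} {F : Type u} [Field F]

theorem spe_QM_yvec (a b : F) (i : Fin k) : QM k F a b (zM k F 1 - a • fM k F i) = b := by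
  rw [QM_apply]
  simp

theorem spe_mv_gU (a b : F) (i : Fin k) (x : (Fin k ⊕ Fin k) ⊕ Fin 2 → F) :
    mv ⇑(QM k F a b) (gU a b i) x =
      x + ((a * x (Sum.inr 0) + 2 * b * x (Sum.inr 1) - a * x (Sum.inl (Sum.inl i)))
          - b * (x (Sum.inl (Sum.inr i)) + (2 * x (Sum.inr 0) + a * x (Sum.inr 1))
            - x (Sum.inl (Sum.inl i)))) • (eM k F i + zM k F 0 - fM k F i)
        - (x (Sum.inl (Sum.inr i)) + (2 * x (Sum.inr 0) + a * x (Sum.inr 1))
            - x (Sum.inl (Sum.inl i))) • (zM k F 1 - a • fM k F i) := by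
  unfold gU
  rw [mv_eichO]
  unfold Helper44.eich
  rw [spe_QM_yvec]
  simp only [QuadraticMap.polar_add_left, QuadraticMap.polar_sub_left,
    QuadraticMap.polar_smul_left, polar_eM_left, polar_zM0_left, polar_zM1_left, polar_fM_left,
    smul_eq_mul]

theorem spe_gU_e (a b : F) (i : Fin k) :
    mv ⇑(QM k F a b) (gU a b i) (eM k F i) =
      eM k F i + (b - a) • (eM k F i + zM k F 0 - fM k F i) + (zM k F 1 - a • fM k F i) := by
  rw [spe_mv_gU]
  simp
  module

theorem spe_gU_f (a b : F) (i : Fin k) :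
    mv ⇑(QM k F a b) (gU a b i) (fM k F i) =
      fM k F i - b • (eM k F i + zM k F 0 - fM k F i) - (zM k F 1 - a • fM k F i) := by
  rw [spe_mv_gU]
  simp
  module

theorem spe_gU_z0 (a b : F) (i : Fin k) :
    mv ⇑(QM k F a b) (gU a b i) (zM k F 0) =
      zM k F 0 + (a - 2 * b) • (eM k F i + zM k F 0 - fM k F i)
        - (2 : F) • (zM k F 1 - a • fM k F i) := by
  rw [spe_mv_gU]
  simp
  module

theorem spe_gU_z1 (a b : F) (i : Fin k) :
    mv ⇑(QM k F a b) (gU a b i) (zM k F 1) =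
      zM k F 1 + (2 * b - a * b) • (eM k F i + zM k F 0 - fM k F i)
        - a • (zM k F 1 - a • fM k F i) := by
  rw [spe_mv_gU]
  simp
  module

theorem spe_aniso [Fintype F] (a b : F)
    (hab : ∀ z₁ z₂ : F, z₁ ^ 2 + a * z₁ * z₂ + b * z₂ ^ 2 = 0 → z₁ = 0 ∧ z₂ = 0) :
    b ≠ 0 ∧ (a ≠ 0 ∨ (2 : F) ≠ 0) := by
  constructor
  · intro hb
    have := (hab 0 1 (by rw [hb]; ring)).2
    exact one_ne_zero this
  · by_contra hcon
    push Not at hcon
    obtain ⟨ha, h2⟩ := hcon
    have hch : ringChar F = 2 :=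
      CharP.ringChar_of_prime_eq_zero Nat.prime_two (by exact_mod_cast h2)
    obtain ⟨c, hc⟩ := FiniteField.isSquare_of_char_two hch b
    have := (hab c 1 (by rw [ha, hc]; linear_combination (c * c) * h2)).2
    exact one_ne_zero this

/-- SPE -/
theorem tm_span_gU_e [Fintype F] (a b : F)
    (hab : ∀ z₁ z₂ : F, z₁ ^ 2 + a * z₁ * z₂ + b * z₂ ^ 2 = 0 → z₁ = 0 ∧ z₂ = 0) (i : Fin k)
    (T : Submodule F ((Fin k ⊕ Fin k) ⊕ Fin 2 → F)) (hf : fM k F i ∈ T)
    (hg : ∀ v ∈ T, mv ⇑(QM k F a b) (gU a b i) v ∈ T)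
    (δ : ↥(isometryGroup F ⇑(QM k F a b))) (t : F) (ht0 : t ≠ 0) (ht1 : t ≠ 1)
    (hδe : mv ⇑(QM k F a b) δ (eM k F i) = t • eM k F i)
    (hδf : mv ⇑(QM k F a b) δ (fM k F i) = t⁻¹ • fM k F i)
    (hδz : ∀ j, mv ⇑(QM k F a b) δ (zM k F j) = zM k F j)
    (hδ : ∀ v ∈ T, mv ⇑(QM k F a b) δ v ∈ T) :
    eM k F i ∈ T ∧ zM k F 0 ∈ T ∧ zM k F 1 ∈ T := by
  obtain ⟨hb, ha2⟩ := spe_aniso a b hab
  have hge := spe_gU_e a b i
  have hgf := spe_gU_f a b i
  have hgz0 := spe_gU_z0 a b i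
  have hgz1 := spe_gU_z1 a b i
  have hδz0 := hδz 0
  have hδz1 := hδz 1
  generalize eM k F i = e at *
  generalize fM k F i = f at *
  generalize zM k F 0 = z0 at *
  generalize zM k F 1 = z1 at *
  generalize gU a b i = g at *
  -- step 1
  have h1 : b • e + b • z0 + z1 ∈ T := by
    have h := T.add_mem (T.neg_mem (T.sub_mem (hg f hf) hf)) (T.smul_mem (b + a) hf)
    rw [hgf] at h
    convert h using 1
    module
  -- step 2
  have h2 : (b * (t - 1)) • e ∈ T := by
    have h := T.sub_mem (hδ _ h1) h1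
    rw [mv_add, mv_add, mv_smul, mv_smul, hδe, hδz0, hδz1] at h
    convert h using 1
    module
  have he : e ∈ T := by
    have h := T.smul_mem (b * (t - 1))⁻¹ h2
    rwa [smul_smul, inv_mul_cancel₀ (mul_ne_zero hb (sub_ne_zero.mpr ht1)), one_smul] at h
  have hw : b • z0 + z1 ∈ T := by
    have h := T.sub_mem h1 (T.smul_mem b he)
    convert h using 1
    module
  -- step 3
  have h3 : a • z0 ∈ T := by
    have h := T.sub_mem (T.sub_mem (T.add_mem hw (T.smul_mem (b - a) he))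
      (T.smul_mem (b - a + a) hf)) (T.sub_mem (hg e he) he)
    rw [hge] at h
    convert h using 1
    module
  -- step 4
  have h4 : (b * (2 + a)) • z0 ∈ T := by
    have h := T.sub_mem (hg _ hw) hw
    rw [mv_add, mv_smul, hgz0, hgz1] at h
    have h' := T.add_mem (T.add_mem (T.sub_mem h (T.smul_mem (2 * b - 2 * b ^ 2) he))
      (T.smul_mem ((2 * b - 2 * b ^ 2) - (2 * b + a) * a) hf)) (T.smul_mem (2 * b + a) hw)
    convert h' using 1
    module
  have h5 : (2 : F) • z0 ∈ T := by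
    have h := T.sub_mem (T.smul_mem b⁻¹ h4) h3
    convert h using 1
    rw [smul_smul, ← mul_assoc, inv_mul_cancel₀ hb]
    module
  have hz0 : z0 ∈ T := by
    rcases ha2 with ha | h2'
    · have h := T.smul_mem a⁻¹ h3
      rwa [smul_smul, inv_mul_cancel₀ ha, one_smul] at h
    · have h := T.smul_mem (2 : F)⁻¹ h5
      rwa [smul_smul, inv_mul_cancel₀ h2', one_smul] at h
  refine ⟨he, hz0, ?_⟩
  have h := T.sub_mem hw (T.smul_mem b hz0)
  convert h using 1
  module

end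

end Cfsg.Agent.Helper52
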