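import Mathlib
import Cfsg.Prelude.Def_GeometricClasses
import Cfsg.Prelude.Def_Classical
import Cfsg.Agent.Helper58.TSDefs
import Cfsg.Agent.Helper96.OHDefs
import Cfsg.Agent.Helper33.ODisc

set_option autoImplicit false
set_option linter.unusedSectionVars false
set_option linter.unusedVariables false

/-!
# Sub-CALL TSR2 (helper90), piece SKTYPE, part 1: the type of a space carrying an isometry with
square `-1` (`-1` a nonsquare), from the statement of SKBASIS (passed in as a hypothesis).
-/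

namespace Cfsg.Agent.Helper52.TSR2

open Module Cfsg Cfsg.Geo Cfsg.Agent.Helper58.TS
open Cfsg.Agent.Helper96.OH
open scoped MatrixGroups

variable {ι : Type} [Fintype ι] [DecidableEq ι] {F : Type*} [Field F] [Fintype F]

theorem r2_skew_type_of (Q : (ι → F) → F) (hQ : IsNondegenerateQuadraticForm Q) (h2 : (2 : F) ≠ 0)
    (d : ℕ) (hd : 1 ≤ d) (hcard : Fintype.card ι = 2 * d) (M : Matrix ι ι F)
    (hM : ∀ v, Q (M.mulVec v) = Q v) (hM2 : M * M = -1) (hm1 : ¬ IsSquare (-1 : F))
    (hB : ∃ v : Fin d → (ι → F), (∀ j, Q (v j) ≠ 0) ∧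
      ∀ j l, j ≠ l → QuadraticMap.polar Q (v j) (v l) = 0 ∧
        QuadraticMap.polar Q (v j) (M.mulVec (v l)) = 0) :
    IsPlusTypeOn Q ⊤ ↔ Even d := by
  classical
  obtain ⟨v, hv0, hvo⟩ := hB
  have hMM : ∀ x, M.mulVec (M.mulVec x) = -x := by
    intro x
    rw [Matrix.mulVec_mulVec, hM2, Matrix.neg_mulVec, Matrix.one_mulVec]
  have hiso : ∀ x y, pB Q hQ (M.mulVec x) (M.mulVec y) = pB Q hQ x y := by
    intro x y
    rw [pB_apply, pB_apply]
    unfold QuadraticMap.polar
    rw [← Matrix.mulVec_add, hM, hM, hM]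
  have hvMv : ∀ x, pB Q hQ x (M.mulVec x) = 0 := by
    intro x
    have h1 : pB Q hQ x (M.mulVec x) = - pB Q hQ x (M.mulVec x) := by
      calc pB Q hQ x (M.mulVec x) = pB Q hQ (M.mulVec x) (M.mulVec (M.mulVec x)) :=
            (hiso _ _).symm
        _ = pB Q hQ (M.mulVec x) (-x) := by rw [hMM]
        _ = - pB Q hQ (M.mulVec x) x := by rw [map_neg]
        _ = - pB Q hQ x (M.mulVec x) := by rw [pB_comm Q hQ x]
    have h3 : (2 : F) * pB Q hQ x (M.mulVec x) = 0 := by linear_combination h1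
    exact (mul_eq_zero.1 h3).resolve_left h2
  let b : Fin d ⊕ Fin d → (ι → F) := Sum.elim v (fun j => M.mulVec (v j))
  have hbself : ∀ k, pB Q hQ (b k) (b k) = 2 * Q (v (Sum.elim id id k)) := by
    rintro (j | j)
    · exact pB_self Q hQ (v j)
    · show pB Q hQ (M.mulVec (v j)) (M.mulVec (v j)) = _
      rw [pB_self, hM]
      rfl
  have hbo : ∀ k k', k ≠ k' → pB Q hQ (b k) (b k') = 0 := by
    rintro (j | j) (l | l) hne
    · have hjl : j ≠ l := fun h => hne (by rw [h])
      exact (hvo j l hjl).1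
    · by_cases hjl : j = l
      · subst hjl
        exact hvMv (v j)
      · exact (hvo j l hjl).2
    · show pB Q hQ (M.mulVec (v j)) (v l) = 0
      rw [pB_comm]
      by_cases hjl : l = j
      · subst hjl
        exact hvMv (v l)
      · exact (hvo l j hjl).2
    · have hjl : j ≠ l := fun h => hne (by rw [h])
      show pB Q hQ (M.mulVec (v j)) (M.mulVec (v l)) = 0
      rw [hiso]
      exact (hvo j l hjl).1
  have hbne : ∀ k, pB Q hQ (b k) (b k) ≠ 0 := by
    intro k
    rw [hbself]
    exact mul_ne_zero h2 (hv0 _)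
  have hli : LinearIndependent F b :=
    LinearMap.BilinForm.linearIndependent_of_iIsOrtho (B := pB Q hQ)
      (fun k k' hkk' => hbo k k' hkk') hbne
  have hcardκ : Fintype.card (Fin d ⊕ Fin d) = finrank F (ι → F) := by
    rw [Module.finrank_fintype_fun_eq_card, hcard, Fintype.card_sum, Fintype.card_fin]
    ring
  have hne : Nonempty (Fin d ⊕ Fin d) := ⟨Sum.inl ⟨0, hd⟩⟩
  have hbb : ∀ k, (basisOfLinearIndependentOfCardEqFinrank hli hcardκ) k = b k := fun k => by
    rw [coe_basisOfLinearIndependentOfCardEqFinrank]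
  rw [Cfsg.Agent.Helper33.o_plus_iff_disc h2 Q hQ hd hcard
    (basisOfLinearIndependentOfCardEqFinrank hli hcardκ)]
  have hgram : (Matrix.of fun i j => QuadraticMap.polar Q
      ((basisOfLinearIndependentOfCardEqFinrank hli hcardκ) i)
      ((basisOfLinearIndependentOfCardEqFinrank hli hcardκ) j)) =
      Matrix.diagonal (fun k => 2 * Q (v (Sum.elim id id k))) := by
    ext k k'
    rw [Matrix.of_apply, hbb, hbb, Matrix.diagonal_apply]
    by_cases hkk : k = k'
    · subst hkk
      rw [if_pos rfl]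
      exact hbself k
    · rw [if_neg hkk]
      exact hbo k k' hkk
  rw [hgram, Matrix.det_diagonal, Fintype.prod_sum_type]
  simp only [Sum.elim_inl, Sum.elim_inr, id]
  have hP0 : (∏ j, 2 * Q (v j)) ≠ 0 :=
    Finset.prod_ne_zero_iff.2 (fun j _ => mul_ne_zero h2 (hv0 j))
  generalize (∏ j, 2 * Q (v j)) = P at hP0
  constructor
  · intro hsq
    by_contra hodd
    rw [Nat.not_even_iff_odd] at hodd
    rw [hodd.neg_one_pow] at hsq
    apply hm1
    obtain ⟨s, hs⟩ := hsq
    refine ⟨s / P, ?_⟩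
    field_simp
    linear_combination hs
  · intro hev
    rw [hev.neg_one_pow, one_mul]
    exact ⟨P, rfl⟩

end Cfsg.Agent.Helper52.TSR2
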